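import Mathlib

set_option autoImplicit false
set_option linter.style.haveILetI false

/-!
Direct decompositions of finite abelian `p`-groups: cyclic subgroups of maximal order are
direct factors, homocyclic direct factors over a prescribed socle, and decompositions that are
invariant under a group of automorphisms of order prime to `p`.
-/

namespace Cfsg.Agent.Helper21

universe u

/-- In a finite monoid some positive power of any element is idempotent. -/
theorem exists_idem_pow {M : Type*} [Monoid M] [Finite M] (x : M) :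
    ∃ n : ℕ, 0 < n ∧ x ^ n * x ^ n = x ^ n := by
  obtain ⟨i, j, hij, h⟩ := Finite.exists_ne_map_eq_of_infinite (fun n : ℕ => x ^ n)
  have key : ∀ i j : ℕ, i < j → x ^ i = x ^ j → ∃ n : ℕ, 0 < n ∧ x ^ n * x ^ n = x ^ n := by
    intro i j hlt h
    have hd : 0 < j - i := by omega
    have h1 : ∀ m, i ≤ m → x ^ (m + (j - i)) = x ^ m := by
      intro m hm
      have e1 : m + (j - i) = (m - i) + j := by omega
      have e2 : m = (m - i) + i := by omega
      rw [e1, pow_add, ← h, ← pow_add, ← e2]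
    have h2 : ∀ k m, i ≤ m → x ^ (m + k * (j - i)) = x ^ m := by
      intro k
      induction k with
      | zero => intro m _; simp
      | succ k ih =>
        intro m hm
        have e : m + (k + 1) * (j - i) = (m + k * (j - i)) + (j - i) := by ring
        rw [e, h1 _ (by omega), ih m hm]
    refine ⟨(i + 1) * (j - i), Nat.mul_pos (by omega) hd, ?_⟩
    rw [← pow_add]
    have hge : i ≤ (i + 1) * (j - i) := by
      calc i ≤ (i + 1) * 1 := by omega
        _ ≤ (i + 1) * (j - i) := Nat.mul_le_mul_left _ hd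
    exact h2 (i + 1) _ hge
  rcases Nat.lt_or_gt_of_ne hij with hlt | hlt
  · exact key i j hlt h
  · exact key j i hlt h.symm

section

variable {A : Type*} [CommGroup A] [Finite A]

/-- A cyclic subgroup of maximal order `p^e` of `D` has a complement in `D` containing
a prescribed subgroup `U'` that meets it trivially. -/
theorem cyc_complement_rel {p : ℕ} (hp : p.Prime) (e : ℕ) (D : Subgroup A)
    (hD : ∀ g ∈ D, g ^ p ^ e = 1) (a : A) (haD : a ∈ D) (ha : orderOf a = p ^ e)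
    (U' : Subgroup A) (hU'D : U' ≤ D) (hdisj : Subgroup.zpowers a ⊓ U' = ⊥) :
    ∃ C : Subgroup A, U' ≤ C ∧ C ≤ D ∧ Subgroup.zpowers a ⊓ C = ⊥ ∧
      Subgroup.zpowers a ⊔ C = D := by
  classical
  obtain ⟨C, -, hCs, hmax⟩ :=
    (Set.toFinite {C : Subgroup A | U' ≤ C ∧ C ≤ D ∧ Subgroup.zpowers a ⊓ C = ⊥}).exists_le_maximal
      (show U' ∈ {C : Subgroup A | U' ≤ C ∧ C ≤ D ∧ Subgroup.zpowers a ⊓ C = ⊥} from
        ⟨le_rfl, hU'D, hdisj⟩)
  obtain ⟨hC1, hC2, hC3⟩ := hCs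
  refine ⟨C, hC1, hC2, hC3, ?_⟩
  by_contra hne
  have haD' : Subgroup.zpowers a ≤ D := by rwa [Subgroup.zpowers_le]
  have hM : Subgroup.zpowers a ⊔ C < D := lt_of_le_of_ne (sup_le haD' hC2) hne
  obtain ⟨g, hgD, hgM⟩ := SetLike.exists_of_lt hM
  have hex : ∃ k : ℕ, g ^ p ^ k ∈ Subgroup.zpowers a ⊔ C := ⟨e, by rw [hD g hgD]; exact one_mem _⟩
  have hk0 : Nat.find hex ≠ 0 := by
    intro h0
    have := Nat.find_spec hex
    rw [h0, pow_zero, pow_one] at this
    exact hgM this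
  obtain ⟨k, hk⟩ := Nat.exists_eq_succ_of_ne_zero hk0
  have hg1M : g ^ p ^ k ∉ Subgroup.zpowers a ⊔ C := Nat.find_min hex (by omega)
  have hg1p : (g ^ p ^ k) ^ p ∈ Subgroup.zpowers a ⊔ C := by
    have := Nat.find_spec hex
    rw [hk, Nat.succ_eq_add_one, pow_succ, pow_mul] at this
    exact this
  have hg1D : g ^ p ^ k ∈ D := pow_mem hgD _
  obtain ⟨g1, hg1def⟩ : ∃ g1 : A, g1 = g ^ p ^ k := ⟨_, rfl⟩
  rw [← hg1def] at hg1M hg1p hg1D
  have he : 1 ≤ e := by
    by_contra h0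
    have he0 : e = 0 := by omega
    have := hD g hgD
    rw [he0, pow_zero, pow_one] at this
    rw [this] at hgM
    exact hgM (one_mem _)
  obtain ⟨y, hy, c, hc, hyc⟩ := Subgroup.mem_sup.mp hg1p
  obtain ⟨j, hj0⟩ := (mem_powers_iff_mem_zpowers).mpr hy
  have hj : a ^ j = y := hj0
  -- `a ^ (j * p^(e-1)) = 1`
  have h1 : (a ^ j) ^ p ^ (e - 1) = 1 := by
    have h2 : (g1 ^ p) ^ p ^ (e - 1) = 1 := by
      rw [← pow_mul, ← pow_succ', show e - 1 + 1 = e by omega]
      exact hD g1 hg1D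
    rw [← hyc, mul_pow] at h2
    have h3 : y ^ p ^ (e - 1) ∈ Subgroup.zpowers a ⊓ C := by
      refine Subgroup.mem_inf.mpr ⟨pow_mem hy _, ?_⟩
      have : y ^ p ^ (e - 1) = (c ^ p ^ (e - 1))⁻¹ := eq_inv_of_mul_eq_one_left h2
      rw [this]
      exact inv_mem (pow_mem hc _)
    rw [hC3, Subgroup.mem_bot] at h3
    rw [hj]
    exact h3
  have hpj : p ∣ j := by
    rw [← pow_mul] at h1
    have h2 := orderOf_dvd_of_pow_eq_one h1
    rw [ha] at h2
    have h3 : p ^ e = p * p ^ (e - 1) := by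
      rw [← pow_succ', show e - 1 + 1 = e by omega]
    rw [h3] at h2
    exact (Nat.mul_dvd_mul_iff_right (pow_pos hp.pos _)).mp h2
  obtain ⟨j', hj'⟩ := hpj
  obtain ⟨g2, hg2def⟩ : ∃ g2 : A, g2 = g1 * (a ^ j')⁻¹ := ⟨_, rfl⟩
  have hg2p : g2 ^ p = c := by
    rw [hg2def, mul_pow, inv_pow, ← pow_mul, mul_comm j' p, ← hj', hj, ← hyc]
    rw [mul_comm y c, mul_assoc, mul_inv_cancel, mul_one]
  have haM : a ∈ Subgroup.zpowers a ⊔ C := Subgroup.mem_sup_left (Subgroup.mem_zpowers a)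
  have hg2M : g2 ∉ Subgroup.zpowers a ⊔ C := by
    intro h
    apply hg1M
    have : g1 = g2 * a ^ j' := by rw [hg2def, inv_mul_cancel_right]
    rw [this]
    exact mul_mem h (pow_mem haM _)
  have hg2D : g2 ∈ D := by
    rw [hg2def]
    exact mul_mem hg1D (inv_mem (pow_mem haD _))
  have hCM : C ≤ Subgroup.zpowers a ⊔ C := le_sup_right
  -- the bigger subgroup
  have hnot : ¬ (Subgroup.zpowers a ⊓ (C ⊔ Subgroup.zpowers g2) = ⊥) := by
    intro hbot
    have hmem : (C ⊔ Subgroup.zpowers g2) ∈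
        {C : Subgroup A | U' ≤ C ∧ C ≤ D ∧ Subgroup.zpowers a ⊓ C = ⊥} :=
      ⟨hC1.trans le_sup_left, sup_le hC2 (by rwa [Subgroup.zpowers_le]), hbot⟩
    have hle := hmax hmem le_sup_left
    exact hg2M (hCM (hle (Subgroup.mem_sup_right (Subgroup.mem_zpowers g2))))
  apply hnot
  rw [Subgroup.eq_bot_iff_forall]
  rintro z ⟨hz1, hz2⟩
  obtain ⟨c', hc', w, hw, hcw⟩ := Subgroup.mem_sup.mp hz2
  obtain ⟨i, hi0⟩ := (mem_powers_iff_mem_zpowers).mpr hw
  have hi : g2 ^ i = w := hi0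
  by_cases hpi : p ∣ i
  · obtain ⟨i', hi'⟩ := hpi
    have hwC : w ∈ C := by
      rw [← hi, hi', pow_mul, hg2p]
      exact pow_mem hc _
    have : z ∈ Subgroup.zpowers a ⊓ C :=
      Subgroup.mem_inf.mpr ⟨hz1, by rw [← hcw]; exact mul_mem hc' hwC⟩
    rw [hC3, Subgroup.mem_bot] at this
    exact this
  · exfalso
    have hcop : IsCoprime (i : ℤ) (p : ℤ) :=
      Nat.isCoprime_iff_coprime.mpr ((Nat.Prime.coprime_iff_not_dvd hp).mpr hpi).symm
    obtain ⟨s, t, hst⟩ := hcop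
    have hwM : g2 ^ i ∈ Subgroup.zpowers a ⊔ C := by
      have : g2 ^ i = z * c'⁻¹ := by rw [hi, ← hcw]; simp
      rw [this]
      exact mul_mem (Subgroup.mem_sup_left hz1) (hCM (inv_mem hc'))
    have hpM : g2 ^ p ∈ Subgroup.zpowers a ⊔ C := by rw [hg2p]; exact hCM hc
    apply hg2M
    have : g2 = (g2 ^ i) ^ s * (g2 ^ p) ^ t := by
      rw [← zpow_natCast g2 i, ← zpow_natCast g2 p, ← zpow_mul, ← zpow_mul, ← zpow_add,
        mul_comm (i : ℤ) s, mul_comm (p : ℤ) t, hst, zpow_one]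
    rw [this]
    exact mul_mem (zpow_mem hwM _) (zpow_mem hpM _)

/-- Elements of order dividing `p` in a cyclic group of order `p^e`. -/
theorem zpowers_socle {p : ℕ} (hp : p.Prime) (e : ℕ) (he : 1 ≤ e) (a : A)
    (ha : orderOf a = p ^ e) (y : A) (hy : y ∈ Subgroup.zpowers a) (hyp : y ^ p = 1) :
    y ∈ Subgroup.zpowers (a ^ p ^ (e - 1)) := by
  obtain ⟨j, hj⟩ := (mem_powers_iff_mem_zpowers).mpr hy
  have hj' : a ^ j = y := hj
  rw [← hj', ← pow_mul] at hyp
  have h2 := orderOf_dvd_of_pow_eq_one hyp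
  rw [ha] at h2
  have h3 : p ^ e = p ^ (e - 1) * p := by
    rw [← pow_succ, show e - 1 + 1 = e by omega]
  rw [h3] at h2
  obtain ⟨m, hm⟩ := (Nat.mul_dvd_mul_iff_right hp.pos).mp h2
  rw [← hj', hm, pow_mul]
  exact pow_mem (Subgroup.mem_zpowers _) _

/-- A subgroup `U` of `D` all of whose elements are `p^(e-1)`-th powers in `D` (`D` of
exponent dividing `p^e`) is the socle of a direct factor of `D`. -/
theorem homocyclic_factor {p : ℕ} [hpf : Fact p.Prime] (e : ℕ) (he : 1 ≤ e) :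
    ∀ (n : ℕ) (U D : Subgroup A), Nat.card U ≤ n → U ≤ D → (∀ g ∈ D, g ^ p ^ e = 1) →
      (∀ u ∈ U, ∃ g ∈ D, g ^ p ^ (e - 1) = u) →
      ∃ B C : Subgroup A, B ⊓ C = ⊥ ∧ B ⊔ C = D ∧ U ≤ B ∧ ∀ b ∈ B, b ^ p = 1 → b ∈ U := by
  have hp : p.Prime := hpf.out
  intro n
  induction n with
  | zero =>
    intro U D hc
    have := Nat.card_pos (α := U)
    omega
  | succ n ih =>
    intro U D hc hUD hD hpow
    by_cases hU : U = ⊥
    · refine ⟨⊥, D, bot_inf_eq _, bot_sup_eq _, hU.le, ?_⟩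
      intro b hb _
      rw [Subgroup.mem_bot] at hb
      rw [hb]
      exact one_mem _
    obtain ⟨u, huU, hu1⟩ := (Subgroup.ne_bot_iff_exists_ne_one (H := U)).mp hU |>.imp
      (fun u h => h) |> fun ⟨u, hu⟩ => (⟨u.1, u.2, fun h => hu (Subtype.ext h)⟩ :
        ∃ u : A, u ∈ U ∧ u ≠ 1)
    obtain ⟨a, haD, hau⟩ := hpow u huU
    have hape : a ^ p ^ e = 1 := hD a haD
    have ha : orderOf a = p ^ e := by
      have h1 : ¬ a ^ p ^ (e - 1) = 1 := by rw [hau]; exact hu1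
      have h2 : a ^ p ^ (e - 1 + 1) = 1 := by rw [show e - 1 + 1 = e by omega]; exact hape
      have := orderOf_eq_prime_pow h1 h2
      rwa [show e - 1 + 1 = e by omega] at this
    have hUp : ∀ g ∈ U, g ^ p = 1 := by
      intro g hg
      obtain ⟨h, hhD, hh⟩ := hpow g hg
      rw [← hh, ← pow_mul, ← pow_succ, show e - 1 + 1 = e by omega]
      exact hD h hhD
    have hou : orderOf u = p ^ 1 := by
      rw [pow_one]
      exact orderOf_eq_prime (hUp u huU) hu1
    -- complement of `⟨u⟩` in `U`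
    obtain ⟨U', -, hU'U, hU'1, hU'2⟩ := cyc_complement_rel hp 1 U
      (fun g hg => by rw [pow_one]; exact hUp g hg) u huU hou ⊥ bot_le (inf_bot_eq _)
    have hU'lt : Nat.card U' ≤ n := by
      have h1 := Subgroup.card_le_of_le hU'U
      have h2 : Nat.card U' ≠ Nat.card U := by
        intro h
        have h3 := Subgroup.eq_of_le_of_card_ge hU'U (le_of_eq h.symm)
        rw [h3] at hU'1
        have : u ∈ Subgroup.zpowers u ⊓ U := Subgroup.mem_inf.mpr ⟨Subgroup.mem_zpowers u, huU⟩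
        rw [hU'1, Subgroup.mem_bot] at this
        exact hu1 this
      omega
    have hdisj : Subgroup.zpowers a ⊓ U' = ⊥ := by
      rw [Subgroup.eq_bot_iff_forall]
      rintro y ⟨hy1, hy2⟩
      have h1 := zpowers_socle hp e he a ha y hy1 (hUp y (hU'U hy2))
      rw [hau] at h1
      have : y ∈ Subgroup.zpowers u ⊓ U' := Subgroup.mem_inf.mpr ⟨h1, hy2⟩
      rw [hU'1, Subgroup.mem_bot] at this
      exact this
    obtain ⟨C1, hC1a, hC1D, hC1b, hC1c⟩ :=
      cyc_complement_rel hp e D hD a haD ha U' (hU'U.trans hUD) hdisj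
    have hpow' : ∀ u' ∈ U', ∃ g ∈ C1, g ^ p ^ (e - 1) = u' := by
      intro u' hu'
      obtain ⟨h, hhD, hh⟩ := hpow u' (hU'U hu')
      rw [← hC1c] at hhD
      obtain ⟨y, hy, c, hc, hyc⟩ := Subgroup.mem_sup.mp hhD
      refine ⟨c, hc, ?_⟩
      rw [← hyc, mul_pow] at hh
      have h3 : y ^ p ^ (e - 1) ∈ Subgroup.zpowers a ⊓ C1 := by
        refine Subgroup.mem_inf.mpr ⟨pow_mem hy _, ?_⟩
        have : y ^ p ^ (e - 1) = u' * (c ^ p ^ (e - 1))⁻¹ := by rw [← hh]; simp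
        rw [this]
        exact mul_mem (hC1a hu') (inv_mem (pow_mem hc _))
      rw [hC1b, Subgroup.mem_bot] at h3
      rw [h3, one_mul] at hh
      exact hh
    obtain ⟨B', C', hB1, hB2, hB3, hB4⟩ :=
      ih U' C1 hU'lt hC1a (fun g hg => hD g (hC1D hg)) hpow'
    have hB'C1 : B' ≤ C1 := by rw [← hB2]; exact le_sup_left
    have hC'C1 : C' ≤ C1 := by rw [← hB2]; exact le_sup_right
    refine ⟨Subgroup.zpowers a ⊔ B', C', ?_, ?_, ?_, ?_⟩
    · rw [Subgroup.eq_bot_iff_forall]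
      rintro x ⟨hx1, hx2⟩
      obtain ⟨y, hy, b', hb', hyb⟩ := Subgroup.mem_sup.mp hx1
      have hy1 : y ∈ Subgroup.zpowers a ⊓ C1 := by
        refine Subgroup.mem_inf.mpr ⟨hy, ?_⟩
        have : y = x * b'⁻¹ := by rw [← hyb]; simp
        rw [this]
        exact mul_mem (hC'C1 hx2) (inv_mem (hB'C1 hb'))
      rw [hC1b, Subgroup.mem_bot] at hy1
      rw [hy1, one_mul] at hyb
      have : x ∈ B' ⊓ C' := Subgroup.mem_inf.mpr ⟨by rw [← hyb]; exact hb', hx2⟩
      rw [hB1, Subgroup.mem_bot] at this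
      exact this
    · rw [sup_assoc, hB2, hC1c]
    · rw [← hU'2]
      refine sup_le ?_ (hB3.trans le_sup_right)
      rw [Subgroup.zpowers_le, ← hau]
      exact Subgroup.mem_sup_left (pow_mem (Subgroup.mem_zpowers a) _)
    · intro b hb hbp
      obtain ⟨y, hy, b', hb', hyb⟩ := Subgroup.mem_sup.mp hb
      rw [← hyb, mul_pow] at hbp
      have hy1 : y ^ p ∈ Subgroup.zpowers a ⊓ C1 := by
        refine Subgroup.mem_inf.mpr ⟨pow_mem hy _, ?_⟩
        have : y ^ p = (b' ^ p)⁻¹ := eq_inv_of_mul_eq_one_left hbp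
        rw [this]
        exact inv_mem (pow_mem (hB'C1 hb') _)
      rw [hC1b, Subgroup.mem_bot] at hy1
      rw [hy1, one_mul] at hbp
      have h1 := zpowers_socle hp e he a ha y hy hy1
      rw [hau] at h1
      rw [← hyb, ← hU'2]
      exact mul_mem (Subgroup.mem_sup_left h1) (Subgroup.mem_sup_right (hB4 b' hb' hbp))

omit [Finite A] in
/-- The projection onto a direct factor of an abelian group. -/
theorem proj_of_decomp (B C : Subgroup A) (h1 : B ⊓ C = ⊥) (h2 : B ⊔ C = ⊤) :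
    ∃ φ : A →* A, (∀ b ∈ B, φ b = b) ∧ (∀ g, φ g ∈ B) := by
  have hex : ∀ g : A, ∃ b ∈ B, ∃ c ∈ C, b * c = g := fun g =>
    Subgroup.mem_sup.mp (h2 ▸ Subgroup.mem_top g)
  choose f hfB c hcC hfc using hex
  have huniq : ∀ b ∈ B, ∀ b' ∈ B, ∀ d ∈ C, ∀ d' ∈ C, b * d = b' * d' → b = b' := by
    intro b hb b' hb' d hd d' hd' h
    have h3 : b'⁻¹ * b ∈ B ⊓ C := by
      refine Subgroup.mem_inf.mpr ⟨mul_mem (inv_mem hb') hb, ?_⟩
      have : b'⁻¹ * b = d' * d⁻¹ := by
        rw [inv_mul_eq_iff_eq_mul, ← mul_assoc, ← h, mul_inv_cancel_right]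
      rw [this]
      exact mul_mem hd' (inv_mem hd)
    rw [h1, Subgroup.mem_bot] at h3
    exact (inv_mul_eq_one.mp h3).symm
  refine ⟨MonoidHom.mk' f ?_, ?_, ?_⟩
  · intro g h
    refine huniq _ (hfB _) _ (mul_mem (hfB g) (hfB h)) (c (g * h)) (hcC _) (c g * c h)
      (mul_mem (hcC g) (hcC h)) ?_
    rw [hfc, mul_mul_mul_comm, hfc, hfc]
  · intro b hb
    show f b = b
    exact huniq _ (hfB b) b hb (c b) (hcC b) 1 (one_mem _) (by rw [hfc, mul_one])
  · intro g
    exact hfB g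

end

end Cfsg.Agent.Helper21
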