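import Mathlib
import Cfsg.Agent.Helper21.AbDecomp

set_option autoImplicit false
set_option linter.style.haveILetI false

/-!
Invariant direct decompositions of a finite abelian `p`-group under a group of automorphisms
of order prime to `p`, obtained by averaging a projection and passing to an idempotent power.
-/

namespace Cfsg.Agent.Helper21

universe u

section

variable {A : Type*} [CommGroup A] [Finite A]

theorem invariant_decomp_of_endo {p : ℕ} [Fact p.Prime] (X : Subgroup (MulAut A))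
    (hX : (Nat.card X).Coprime p) (U₀ : Subgroup A)
    (hinv : ∀ x ∈ X, ∀ u ∈ U₀, x u ∈ U₀) (hU₀ne : U₀ ≠ ⊥) (hU₀p : ∀ u ∈ U₀, u ^ p = 1)
    (φ : A →* A) (hφ1 : ∀ u ∈ U₀, φ u = u) (hφ2 : ∀ w : A, w ^ p = 1 → φ w ∈ U₀)
    (hw : ∃ w : A, w ^ p = 1 ∧ w ∉ U₀) :
    ∃ B C : Subgroup A, B ≠ ⊥ ∧ C ≠ ⊥ ∧ (∀ x ∈ X, B.map x.toMonoidHom = B) ∧
      (∀ x ∈ X, C.map x.toMonoidHom = C) ∧ B ⊓ C = ⊥ ∧ B ⊔ C = ⊤ := by
  classical
  have hp : p.Prime := Fact.out
  letI : Fintype X := Fintype.ofFinite X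
  obtain ⟨θ, hθdef⟩ : ∃ θ : A →* A,
      ∀ a, θ a = ∏ x : X, (x : MulAut A) (φ ((x : MulAut A)⁻¹ a)) :=
    ⟨MonoidHom.mk' (fun a => ∏ x : X, (x : MulAut A) (φ ((x : MulAut A)⁻¹ a)))
      (by intro a b; simp only [map_mul]; rw [Finset.prod_mul_distrib]), fun a => rfl⟩
  have hθX : ∀ y ∈ X, ∀ a, y (θ a) = θ (y a) := by
    intro y hy a
    rw [hθdef, hθdef, map_prod]
    refine Fintype.prod_equiv (Equiv.mulLeft (⟨y, hy⟩ : X)) _ _ ?_
    intro x
    show y ((x : MulAut A) (φ ((x : MulAut A)⁻¹ a))) =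
      (y * (x : MulAut A)) (φ ((y * (x : MulAut A))⁻¹ (y a)))
    rw [mul_inv_rev, MulAut.mul_apply, MulAut.mul_apply, MulAut.inv_apply_self]
  have hθU : ∀ u ∈ U₀, θ u = u ^ Nat.card X := by
    intro u hu
    rw [hθdef]
    have : ∀ x : X, (x : MulAut A) (φ ((x : MulAut A)⁻¹ u)) = u := by
      intro x
      have h1 : (x : MulAut A)⁻¹ u ∈ U₀ := hinv _ (X.inv_mem x.2) u hu
      rw [hφ1 _ h1, MulAut.apply_inv_self]
    rw [Finset.prod_congr rfl (fun x _ => this x), Finset.prod_const, Finset.card_univ,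
      Nat.card_eq_fintype_card]
  have hθΩ : ∀ w : A, w ^ p = 1 → θ w ∈ U₀ := by
    intro w hw
    rw [hθdef]
    refine Subgroup.prod_mem _ (fun x _ => ?_)
    apply hinv _ x.2
    apply hφ2
    rw [← map_pow, hw, map_one]
  haveI : Finite (Monoid.End A) :=
    Finite.of_injective (fun f : Monoid.End A => (f : A → A)) DFunLike.coe_injective
  obtain ⟨θ', hθ'⟩ : ∃ θ' : Monoid.End A, ∀ a, θ' a = θ a := ⟨θ, fun a => rfl⟩
  obtain ⟨n, hn, hidem⟩ := exists_idem_pow θ'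
  obtain ⟨T, hT⟩ : ∃ T : Monoid.End A, T = θ' ^ n := ⟨_, rfl⟩
  have hTfun : ∀ a, T a = (θ)^[n] a := by
    intro a
    rw [hT]
    have h1 := congrFun (Monoid.End.coe_pow A θ' n) a
    rw [h1]
    have h2 : (⇑θ' : A → A) = ⇑θ := funext hθ'
    rw [h2]
  have hTT : ∀ a, T (T a) = T a := by
    intro a
    have h1 := congrFun (Monoid.End.coe_mul A T T) a
    have h2 : T * T = T := by rw [hT]; exact hidem
    rw [h2] at h1
    exact h1.symm
  obtain ⟨ε, hεT⟩ : ∃ ε : A →* A, ∀ a, ε a = T a := ⟨T, fun a => rfl⟩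
  have hεfun : ∀ a, ε a = (θ)^[n] a := fun a => by rw [hεT, hTfun]
  have hεε : ∀ a, ε (ε a) = ε a := fun a => by rw [hεT, hεT, hTT]
  have hiter1 : ∀ k : ℕ, (θ)^[k] (1 : A) = 1 := by
    intro k
    induction k with
    | zero => rfl
    | succ k ih => rw [Function.iterate_succ_apply, map_one, ih]
  have hiterX : ∀ k : ℕ, ∀ y ∈ X, ∀ a, y ((θ)^[k] a) = (θ)^[k] (y a) := by
    intro k
    induction k with
    | zero => intro y _ a; rfl
    | succ k ih =>
      intro y hy a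
      rw [Function.iterate_succ_apply', Function.iterate_succ_apply', hθX y hy, ih y hy]
  have hεX : ∀ y ∈ X, ∀ a, y (ε a) = ε (y a) := by
    intro y hy a
    rw [hεfun, hεfun, hiterX n y hy]
  have hiterU : ∀ k : ℕ, ∀ u ∈ U₀, (θ)^[k] u = u ^ (Nat.card X) ^ k := by
    intro k
    induction k with
    | zero => intro u _; simp
    | succ k ih =>
      intro u hu
      rw [Function.iterate_succ_apply', ih u hu, map_pow, hθU u hu, ← pow_mul, pow_succ,
        mul_comm]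
  refine ⟨ε.range, ε.ker, ?_, ?_, ?_, ?_, ?_, ?_⟩
  · obtain ⟨u, huU, hu1⟩ : ∃ u : A, u ∈ U₀ ∧ u ≠ 1 := by
      by_contra hcon
      push Not at hcon
      exact hU₀ne ((Subgroup.eq_bot_iff_forall _).mpr hcon)
    intro hB
    have h1 : ε u ∈ ε.range := ⟨u, rfl⟩
    rw [hB, Subgroup.mem_bot, hεfun, hiterU n u huU] at h1
    have h2 := orderOf_dvd_of_pow_eq_one h1
    rw [orderOf_eq_prime (hU₀p u huU) hu1] at h2
    have h3 := hp.dvd_of_dvd_pow h2
    exact (Nat.Prime.coprime_iff_not_dvd hp).mp hX.symm h3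
  · obtain ⟨w, hwp, hwU⟩ := hw
    have hUO : U₀ ≤ (powMonoidHom p : A →* A).ker := fun u hu => by
      rw [MonoidHom.mem_ker]
      exact hU₀p u hu
    have hcard : Nat.card U₀ < Nat.card ((powMonoidHom p : A →* A).ker) := by
      have h1 := Subgroup.card_le_of_le hUO
      have h2 : Nat.card U₀ ≠ Nat.card ((powMonoidHom p : A →* A).ker) := fun h => by
        have h3 := Subgroup.eq_of_le_of_card_ge hUO (le_of_eq h.symm)
        apply hwU
        rw [h3]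
        exact (MonoidHom.mem_ker).mpr hwp
      omega
    have hninj : ¬ Function.Injective
        (fun w : ((powMonoidHom p : A →* A).ker) =>
          (⟨θ w, hθΩ w ((MonoidHom.mem_ker).mp w.2)⟩ : U₀)) := fun hinj => by
      have := Nat.card_le_card_of_injective _ hinj
      omega
    rw [Function.Injective] at hninj
    push Not at hninj
    obtain ⟨w1, w2, hf, hne⟩ := hninj
    have hθeq : θ (w1 : A) = θ (w2 : A) := congrArg Subtype.val hf
    have hv : θ ((w1 : A) * (w2 : A)⁻¹) = 1 := by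
      rw [map_mul, map_inv, hθeq, mul_inv_cancel]
    have hv1 : (w1 : A) * (w2 : A)⁻¹ ≠ 1 := fun h => hne (Subtype.ext (mul_inv_eq_one.mp h))
    intro hC
    have : (w1 : A) * (w2 : A)⁻¹ ∈ ε.ker := by
      rw [MonoidHom.mem_ker, hεfun]
      obtain ⟨m, rfl⟩ : ∃ m, n = m + 1 := ⟨n - 1, by omega⟩
      rw [Function.iterate_succ_apply, hv, hiter1]
    rw [hC, Subgroup.mem_bot] at this
    exact hv1 this
  · intro y hy
    ext b
    constructor
    · rintro ⟨b', ⟨a, rfl⟩, rfl⟩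
      exact ⟨y a, (hεX y hy a).symm⟩
    · rintro ⟨a, rfl⟩
      refine ⟨ε (y⁻¹ a), ⟨_, rfl⟩, ?_⟩
      show y (ε (y⁻¹ a)) = ε a
      rw [hεX y hy, MulAut.apply_inv_self]
  · intro y hy
    ext b
    constructor
    · rintro ⟨c, hc, rfl⟩
      rw [SetLike.mem_coe, MonoidHom.mem_ker] at hc
      rw [MonoidHom.mem_ker]
      show ε (y c) = 1
      rw [← hεX y hy, hc, map_one]
    · intro hb
      rw [MonoidHom.mem_ker] at hb
      refine ⟨y⁻¹ b, ?_, MulAut.apply_inv_self _ y b⟩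
      rw [SetLike.mem_coe, MonoidHom.mem_ker, ← hεX y⁻¹ (X.inv_mem hy), hb, map_one]
  · rw [Subgroup.eq_bot_iff_forall]
    intro b hb
    obtain ⟨⟨a, rfl⟩, hb2⟩ := Subgroup.mem_inf.mp hb
    rw [MonoidHom.mem_ker, hεε] at hb2
    exact hb2
  · rw [eq_top_iff]
    intro a _
    rw [Subgroup.mem_sup]
    refine ⟨ε a, ⟨a, rfl⟩, a * (ε a)⁻¹, ?_, ?_⟩
    · rw [MonoidHom.mem_ker, map_mul, map_inv, hεε, mul_inv_cancel]
    · rw [mul_comm a, mul_inv_cancel_left]

/-- If `U₀` is an invariant subgroup of `p^(e-1)`-th powers (where `p^e` bounds the exponent)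
which is neither trivial nor the whole socle, then `A` splits invariantly. -/
theorem invariant_decomp {p : ℕ} [Fact p.Prime] (X : Subgroup (MulAut A))
    (hX : (Nat.card X).Coprime p) (e : ℕ) (he : 1 ≤ e) (hexp : ∀ g : A, g ^ p ^ e = 1)
    (U₀ : Subgroup A) (hinv : ∀ x ∈ X, ∀ u ∈ U₀, x u ∈ U₀) (hU₀ne : U₀ ≠ ⊥)
    (hpow : ∀ u ∈ U₀, ∃ g : A, g ^ p ^ (e - 1) = u) (hw : ∃ w : A, w ^ p = 1 ∧ w ∉ U₀) :
    ∃ B C : Subgroup A, B ≠ ⊥ ∧ C ≠ ⊥ ∧ (∀ x ∈ X, B.map x.toMonoidHom = B) ∧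
      (∀ x ∈ X, C.map x.toMonoidHom = C) ∧ B ⊓ C = ⊥ ∧ B ⊔ C = ⊤ := by
  obtain ⟨B', C', h1, h2, h3, h4⟩ := homocyclic_factor (p := p) e he (Nat.card U₀) U₀ ⊤ le_rfl
    le_top (fun g _ => hexp g)
    (fun u hu => by obtain ⟨g, hg⟩ := hpow u hu; exact ⟨g, Subgroup.mem_top g, hg⟩)
  obtain ⟨φ, hφ1, hφ2⟩ := proj_of_decomp B' C' h1 h2
  have hU₀p : ∀ u ∈ U₀, u ^ p = 1 := by
    intro u hu
    obtain ⟨g, rfl⟩ := hpow u hu
    rw [← pow_mul, ← pow_succ, show e - 1 + 1 = e by omega]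
    exact hexp g
  exact invariant_decomp_of_endo X hX U₀ hinv hU₀ne hU₀p φ (fun u hu => hφ1 u (h3 hu))
    (fun w hw => h4 _ (hφ2 w) (by rw [← map_pow, hw, map_one])) hw

end

end Cfsg.Agent.Helper21
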