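import Mathlib

set_option autoImplicit false
set_option linter.style.haveILetI false

namespace Cfsg.Agent.Helper21

open scoped commutatorElement

section Breadth
variable {G : Type*} [Group G]

/-- two-step centralizer: elements centralizing `γ_j / γ_{j+2}`. -/
def twoStepC (j : ℕ) : Subgroup G where
  carrier := {x | ∀ y ∈ (⊤ : Subgroup G).lowerCentralSeries j,
    x * y * x⁻¹ * y⁻¹ ∈ (⊤ : Subgroup G).lowerCentralSeries (j + 2)}
  one_mem' := by
    intro y _
    simp
  mul_mem' := by
    intro a b ha hb y hy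
    have hn : ((⊤ : Subgroup G).lowerCentralSeries (j + 2)).Normal := inferInstance
    have h1 := hn.conj_mem _ (hb y hy) a
    have h2 := ha y hy
    have h3 := mul_mem h1 h2
    have : a * b * y * (a * b)⁻¹ * y⁻¹ = a * (b * y * b⁻¹ * y⁻¹) * a⁻¹ * (a * y * a⁻¹ * y⁻¹) := by
      group
    rw [this]; exact h3
  inv_mem' := by
    intro a ha y hy
    have hn : ((⊤ : Subgroup G).lowerCentralSeries (j + 2)).Normal := inferInstance
    have h1 := hn.conj_mem _ (inv_mem (ha y hy)) a⁻¹
    have : a⁻¹ * y * a⁻¹⁻¹ * y⁻¹ = a⁻¹ * (a * y * a⁻¹ * y⁻¹)⁻¹ * a⁻¹⁻¹ := by group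
    rw [this]; exact h1

theorem mem_twoStepC (j : ℕ) (x : G) : x ∈ twoStepC (G := G) j ↔
    ∀ y ∈ (⊤ : Subgroup G).lowerCentralSeries j,
      x * y * x⁻¹ * y⁻¹ ∈ (⊤ : Subgroup G).lowerCentralSeries (j + 2) := Iff.rfl

/-- elements commuting with `x` modulo `γ_j`. -/
def commD (x : G) (j : ℕ) : Subgroup G where
  carrier := {g | x * g * x⁻¹ * g⁻¹ ∈ (⊤ : Subgroup G).lowerCentralSeries j}
  one_mem' := by simp
  mul_mem' := by
    intro g h hg hh
    have hn : ((⊤ : Subgroup G).lowerCentralSeries j).Normal := inferInstance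
    have h1 := hn.conj_mem _ hh g
    have h3 := mul_mem hg h1
    have : x * (g * h) * x⁻¹ * (g * h)⁻¹ =
        (x * g * x⁻¹ * g⁻¹) * (g * (x * h * x⁻¹ * h⁻¹) * g⁻¹) := by group
    rw [Set.mem_ofPred_eq, this]; exact h3
  inv_mem' := by
    intro g hg
    have hn : ((⊤ : Subgroup G).lowerCentralSeries j).Normal := inferInstance
    have h1 := hn.conj_mem _ (inv_mem hg) g⁻¹
    have : x * g⁻¹ * x⁻¹ * g⁻¹⁻¹ = g⁻¹ * (x * g * x⁻¹ * g⁻¹)⁻¹ * g⁻¹⁻¹ := by group
    rw [Set.mem_ofPred_eq, this]; exact h1

theorem mem_commD (x g : G) (j : ℕ) : g ∈ commD x j ↔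
    x * g * x⁻¹ * g⁻¹ ∈ (⊤ : Subgroup G).lowerCentralSeries j := Iff.rfl

/-- Leedham-Green–Neumann–Wiegold: breadth `≤ b` and class exactly `c ≥ 2` give
`(c-1)(p-1) < b p`. -/
theorem breadth_class_bound {p : ℕ} [Fact p.Prime] [Finite G] (hG : IsPGroup p G) (b : ℕ)
    (hb : ∀ x : G, (Subgroup.centralizer ({x} : Set G)).index ≤ p ^ b) (c : ℕ) (hc2 : 2 ≤ c)
    (hc : (⊤ : Subgroup G).lowerCentralSeries (c - 1) ≠ ⊥)
    (hc' : (⊤ : Subgroup G).lowerCentralSeries c = ⊥) : (c - 1) * (p - 1) < b * p := by
  classical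
  have hp := (Fact.out : p.Prime)
  haveI : Fintype G := Fintype.ofFinite G
  obtain ⟨n, hn⟩ := IsPGroup.iff_card.mp hG
  have hanti : Antitone (⊤ : Subgroup G).lowerCentralSeries :=
    Subgroup.lowerCentralSeries_antitone _
  have hCproper : ∀ j, j + 2 ≤ c → (twoStepC (G := G) j) ≠ ⊤ := by
    intro j hj htop
    have hle : (⊤ : Subgroup G).lowerCentralSeries (j + 1) ≤
        (⊤ : Subgroup G).lowerCentralSeries (j + 2) := by
      rw [Subgroup.lowerCentralSeries_succ (⊤ : Subgroup G) j, Subgroup.commutator_le]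
      intro y hy x _
      have hx : x ∈ twoStepC (G := G) j := htop ▸ Subgroup.mem_top x
      have h1 := inv_mem (hx y hy)
      have : ⁅y, x⁆ = (x * y * x⁻¹ * y⁻¹)⁻¹ := by rw [commutatorElement_def]; group
      rw [this]; exact h1
    have heq : (⊤ : Subgroup G).lowerCentralSeries (j + 2) =
        (⊤ : Subgroup G).lowerCentralSeries (j + 1) :=
      le_antisymm (hanti (by omega)) hle
    have hstab : ∀ m, (⊤ : Subgroup G).lowerCentralSeries (j + 1 + m) =
        (⊤ : Subgroup G).lowerCentralSeries (j + 1) := by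
      intro m
      induction m with
      | zero => rfl
      | succ m ih =>
        have h1 : j + 1 + (m + 1) = (j + 1 + m) + 1 := by omega
        rw [h1, Subgroup.lowerCentralSeries_succ, ih, ← Subgroup.lowerCentralSeries_succ]
        exact heq
    have h1 : (⊤ : Subgroup G).lowerCentralSeries (j + 1) = ⊥ := by
      have := hstab (c - (j + 1))
      rw [show j + 1 + (c - (j + 1)) = c by omega, hc'] at this
      exact this.symm
    exact hc (le_bot_iff.mp (h1 ▸ hanti (by omega : j + 1 ≤ c - 1)))
  have hCcard : ∀ j, j + 2 ≤ c → p * Nat.card (twoStepC (G := G) j) ≤ Nat.card G := by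
    intro j hj
    have hne := hCproper j hj
    obtain ⟨k, hk⟩ := hG.index (twoStepC (G := G) j)
    have hk0 : k ≠ 0 := by
      rintro rfl
      rw [pow_zero] at hk
      exact hne (Subgroup.index_eq_one.mp hk)
    have hdvd : p ∣ (twoStepC (G := G) j).index := by rw [hk]; exact dvd_pow_self p hk0
    have hmul := (twoStepC (G := G) j).card_mul_index
    apply Nat.le_of_dvd Nat.card_pos
    rw [← hmul, mul_comm]
    exact Nat.mul_dvd_mul_left _ hdvd
  have hD : ∀ x : G, ∀ m, m ≤ c - 1 →
      p ^ ((Finset.range m).filter (fun j => x ∉ twoStepC (G := G) j)).card ≤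
        (commD x (m + 1)).index := by
    intro x m
    induction m with
    | zero =>
      intro _
      simp only [Finset.range_zero, Finset.filter_empty, Finset.card_empty, pow_zero]
      exact Nat.one_le_iff_ne_zero.mpr Subgroup.index_ne_zero_of_finite
    | succ m ih =>
      intro hm
      have ih' := ih (by omega)
      have hle : commD x (m + 1 + 1) ≤ commD x (m + 1) := fun g hg => hanti (Nat.le_succ _) hg
      rw [Finset.range_add_one, Finset.filter_insert]
      by_cases hx : x ∈ twoStepC (G := G) m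
      · rw [if_neg (not_not.mpr hx)]
        exact ih'.trans (Nat.le_of_dvd (Nat.pos_of_ne_zero Subgroup.index_ne_zero_of_finite)
          (Subgroup.index_dvd_of_le hle))
      · rw [if_pos hx, Finset.card_insert_of_notMem (by simp), pow_succ]
        have hex : ∃ y ∈ (⊤ : Subgroup G).lowerCentralSeries m,
            x * y * x⁻¹ * y⁻¹ ∉ (⊤ : Subgroup G).lowerCentralSeries (m + 2) := by
          by_contra hcon
          push Not at hcon
          exact hx hcon
        obtain ⟨y, hy, hxy⟩ := hex
        have hy1 : y ∈ commD x (m + 1) := by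
          rw [mem_commD, Subgroup.lowerCentralSeries_succ]
          have h1 : ⁅y, x⁆ ∈ ⁅(⊤ : Subgroup G).lowerCentralSeries m, (⊤ : Subgroup G)⁆ :=
            Subgroup.commutator_mem_commutator hy (Subgroup.mem_top x)
          have : x * y * x⁻¹ * y⁻¹ = ⁅y, x⁆⁻¹ := by rw [commutatorElement_def]; group
          rw [this]; exact inv_mem h1
        have hy2 : y ∉ commD x (m + 1 + 1) := hxy
        have hrel : (commD x (m + 1 + 1)).relIndex (commD x (m + 1)) * (commD x (m + 1)).index =
            (commD x (m + 1 + 1)).index := Subgroup.relIndex_mul_index hle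
        have hrel1 : (commD x (m + 1 + 1)).relIndex (commD x (m + 1)) ≠ 1 := by
          intro h1
          exact hy2 (Subgroup.relIndex_eq_one.mp h1 hy1)
        have hrd : (commD x (m + 1 + 1)).relIndex (commD x (m + 1)) ∣ p ^ n := by
          rw [← hn]
          exact (Subgroup.relIndex_dvd_card _ _).trans (Subgroup.card_subgroup_dvd_card _)
        obtain ⟨k, hk, hk'⟩ := (Nat.dvd_prime_pow hp).mp hrd
        have hk0 : k ≠ 0 := by
          rintro rfl
          exact hrel1 (by simpa using hk')
        have hpl : p ≤ (commD x (m + 1 + 1)).relIndex (commD x (m + 1)) := by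
          rw [hk']; exact Nat.le_self_pow hk0 p
        calc p ^ ((Finset.range m).filter (fun j => x ∉ twoStepC (G := G) j)).card * p
            ≤ (commD x (m + 1)).index * (commD x (m + 1 + 1)).relIndex (commD x (m + 1)) :=
              Nat.mul_le_mul ih' hpl
          _ = (commD x (m + 1 + 1)).index := by rw [mul_comm]; exact hrel
  have hout : ∀ x : G,
      ((Finset.range (c - 1)).filter (fun j => x ∉ twoStepC (G := G) j)).card ≤ b := by
    intro x
    have h1 := hD x (c - 1) le_rfl
    have h2 : (commD x (c - 1 + 1)).index ≤ (Subgroup.centralizer ({x} : Set G)).index := by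
      apply Nat.le_of_dvd (Nat.pos_of_ne_zero Subgroup.index_ne_zero_of_finite)
      apply Subgroup.index_dvd_of_le
      intro g hg
      rw [Subgroup.mem_centralizer_singleton_iff] at hg
      rw [mem_commD]
      have : x * g * x⁻¹ * g⁻¹ = 1 := by rw [← hg]; group
      rw [this]; exact one_mem _
    exact (Nat.pow_le_pow_iff_right hp.one_lt).mp (h1.trans (h2.trans (hb x)))
  by_contra hcon
  push Not at hcon
  have hin : ∀ x : G, c - 1 ≤
      p * ((Finset.range (c - 1)).filter (fun j => x ∈ twoStepC (G := G) j)).card := by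
    intro x
    have h1 := hout x
    have h2 := Finset.card_filter_add_card_filter_not (s := Finset.range (c - 1))
      (fun j => x ∈ twoStepC (G := G) j)
    rw [Finset.card_range] at h2
    have h3 : p * ((Finset.range (c - 1)).filter (fun j => x ∉ twoStepC (G := G) j)).card ≤
        (c - 1) * (p - 1) := (Nat.mul_le_mul_left p h1).trans (by rw [mul_comm]; exact hcon)
    have hp1 : 1 ≤ p := hp.one_lt.le
    obtain ⟨q, rfl⟩ : ∃ q, p = q + 1 := ⟨p - 1, by omega⟩
    simp only [Nat.add_sub_cancel] at h3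
    obtain ⟨a, ha⟩ : ∃ a, a = ((Finset.range (c - 1)).filter
      (fun j => x ∈ twoStepC (G := G) j)).card := ⟨_, rfl⟩
    obtain ⟨o, ho⟩ : ∃ o, o = ((Finset.range (c - 1)).filter
      (fun j => x ∉ twoStepC (G := G) j)).card := ⟨_, rfl⟩
    rw [← ha, ← ho] at h2
    rw [← ho] at h3
    rw [← ha]
    have h4 : q * a + q * o = (c - 1) * q := by rw [← Nat.mul_add, h2, mul_comm]
    nlinarith [h2, h3, h4]
  have hsum1 : ∑ _x : G, (c - 1) < ∑ x : G,
      p * ((Finset.range (c - 1)).filter (fun j => x ∈ twoStepC (G := G) j)).card := by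
    apply Finset.sum_lt_sum (fun x _ => hin x)
    refine ⟨1, Finset.mem_univ _, ?_⟩
    have h1 : (Finset.range (c - 1)).filter (fun j => (1 : G) ∈ twoStepC (G := G) j) =
        Finset.range (c - 1) := Finset.filter_true_of_mem (fun j _ => one_mem _)
    rw [h1, Finset.card_range]
    have h2 : 1 * (c - 1) < p * (c - 1) := Nat.mul_lt_mul_of_pos_right hp.one_lt (by omega)
    simpa using h2
  have hsum2 : ∑ x : G,
      p * ((Finset.range (c - 1)).filter (fun j => x ∈ twoStepC (G := G) j)).card =
      ∑ j ∈ Finset.range (c - 1), p * Nat.card (twoStepC (G := G) j) := by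
    simp_rw [Finset.card_filter, Finset.mul_sum]
    rw [Finset.sum_comm]
    refine Finset.sum_congr rfl (fun j _ => ?_)
    rw [← Finset.mul_sum, ← Finset.card_filter]
    congr 1
    exact (Nat.subtype_card _ (by simp)).symm
  have hsum3 : ∑ j ∈ Finset.range (c - 1), p * Nat.card (twoStepC (G := G) j) ≤
      ∑ _j ∈ Finset.range (c - 1), Nat.card G :=
    Finset.sum_le_sum (fun j hj => hCcard j (by have := Finset.mem_range.mp hj; omega))
  rw [hsum2] at hsum1
  simp only [Finset.sum_const, Finset.card_univ, Finset.card_range, smul_eq_mul] at hsum1 hsum3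
  rw [Nat.card_eq_fintype_card] at hsum3
  have := hsum1.trans_le hsum3
  rw [mul_comm] at this
  exact lt_irrefl _ this

end Breadth

end Cfsg.Agent.Helper21
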