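import Mathlib
import Cfsg.Agent.Helper23.Regular
import Cfsg.Agent.S0641
import Cfsg.Agent.S4224
import Cfsg.Agent.S0586

set_option autoImplicit false
set_option linter.style.haveILetI false
open Cfsg

namespace Cfsg.Agent.Helper21

universe u

/-- In a regular `p`-group the product of two `p^n`-th powers is a `p^n`-th power. -/
theorem reg_pow_mul_aux (p : ℕ) [Fact p.Prime] (n : ℕ) :
    ∀ (N : ℕ) (K : Type u) [Group K] [Finite K], Nat.card K ≤ N → Cfsg.IsRegularPGroup p K →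
      ∀ a b : K, ∃ x : K, a ^ p ^ n * b ^ p ^ n = x ^ p ^ n := by
  intro N
  induction N with
  | zero =>
    intro K _ _ hc
    have := Nat.card_pos (α := K)
    omega
  | succ N ih =>
    intro K _ _ hc hreg a b
    have hsub : ∀ L : Subgroup K, L ≠ ⊤ → ∀ x ∈ L, ∀ y ∈ L,
        ∃ z ∈ L, x ^ p ^ n * y ^ p ^ n = z ^ p ^ n := by
      intro L hL x hx y hy
      have hlt := Helper23.card_lt_of_ne_top L hL
      obtain ⟨z, hz⟩ := ih ↥L (by omega) (Helper23.regular_subgroup hreg L) ⟨x, hx⟩ ⟨y, hy⟩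
      refine ⟨z, z.2, ?_⟩
      have := congrArg Subtype.val hz
      simpa using this
    by_cases hab : a * b = b * a
    · exact ⟨a * b, ((show Commute a b from hab).mul_pow (p ^ n)).symm⟩
    by_cases hL : Subgroup.closure ({a, b} : Set K) = ⊤
    · obtain ⟨c, hc, hceq⟩ := hreg.2 a b n
      rw [hL] at hc
      haveI hnil : Group.IsNilpotent K := hreg.1.isNilpotent
      haveI : Nontrivial K := ⟨⟨a * b, b * a, hab⟩⟩
      have hDne : (⁅(⊤ : Subgroup K), ⊤⁆ : Subgroup K) ≠ ⊤ :=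
        ne_of_lt (Group.IsSolvable.commutator_lt_top_of_nontrivial K)
      have hD : ∀ c ∈ Cfsg.powerClosure p n ⁅(⊤ : Subgroup K), ⊤⁆,
          ∃ d ∈ (⁅(⊤ : Subgroup K), ⊤⁆ : Subgroup K), c = d ^ p ^ n := by
        intro c hc
        unfold Cfsg.powerClosure at hc
        induction hc using Subgroup.closure_induction with
        | mem x hx => exact hx
        | one => exact ⟨1, Subgroup.one_mem _, (one_pow _).symm⟩
        | mul x y _ _ hx hy =>
          obtain ⟨d₁, hd₁, rfl⟩ := hx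
          obtain ⟨d₂, hd₂, rfl⟩ := hy
          obtain ⟨z, hz, hzeq⟩ := hsub _ hDne d₁ hd₁ d₂ hd₂
          exact ⟨z, hz, hzeq⟩
        | inv x _ hx =>
          obtain ⟨d, hd, rfl⟩ := hx
          exact ⟨d⁻¹, Subgroup.inv_mem _ hd, (inv_pow d _).symm⟩
      obtain ⟨d, hd, rfl⟩ := hD c hc
      have e : a ^ p ^ n * b ^ p ^ n = (a * b) ^ p ^ n * (d⁻¹) ^ p ^ n := by
        rw [hceq, inv_pow, mul_inv_cancel_right]
      have hM : Subgroup.zpowers (a * b) ⊔ ⁅(⊤ : Subgroup K), ⊤⁆ ≠ ⊤ := by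
        intro hM
        have h1 : Subgroup.zpowers (a * b) ⊔ frattini K = ⊤ := by
          rw [eq_top_iff, ← hM]
          exact sup_le_sup_left (S0586.comm_le_frattini) _
        have h2 := frattini_nongenerating h1
        have ha : a ∈ Subgroup.zpowers (a * b) := h2 ▸ Subgroup.mem_top a
        have hb : b ∈ Subgroup.zpowers (a * b) := h2 ▸ Subgroup.mem_top b
        obtain ⟨i, hi⟩ := Subgroup.mem_zpowers_iff.mp ha
        obtain ⟨j, hj⟩ := Subgroup.mem_zpowers_iff.mp hb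
        have h := (Commute.zpow_zpow_self (a * b) i j).eq
        rw [hi, hj] at h
        exact hab h
      obtain ⟨z, -, hz⟩ := hsub _ hM (a * b) (Subgroup.mem_sup_left (Subgroup.mem_zpowers _))
        d⁻¹ (Subgroup.mem_sup_right (Subgroup.inv_mem _ hd))
      exact ⟨z, e.trans hz⟩
    · obtain ⟨z, -, hz⟩ := hsub _ hL a (Subgroup.subset_closure (by simp)) b
        (Subgroup.subset_closure (by simp))
      exact ⟨z, hz⟩

theorem reg_pow_mul {K : Type u} [Group K] [Finite K] {p : ℕ} [Fact p.Prime]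
    (hreg : Cfsg.IsRegularPGroup p K) (n : ℕ) (a b : K) :
    ∃ x : K, a ^ p ^ n * b ^ p ^ n = x ^ p ^ n :=
  reg_pow_mul_aux p n (Nat.card K) K le_rfl hreg a b

/-- In a regular `p`-group, the subgroup generated by the `p^n`-th powers of a subgroup `H`
consists of `p^n`-th powers of elements of `H`. -/
theorem reg_powerClosure_eq {G : Type u} [Group G] [Finite G] {p : ℕ} [Fact p.Prime]
    (hG : Cfsg.IsRegularPGroup p G) (H : Subgroup G) (n : ℕ) :
    {y : G | ∃ x ∈ H, y = x ^ (p ^ n)} = (Cfsg.powerClosure p n H : Set G) := by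
  apply Set.Subset.antisymm
  · intro y hy
    exact Subgroup.subset_closure hy
  · have key : ∀ c ∈ Cfsg.powerClosure p n H, ∃ x ∈ H, c = x ^ p ^ n := by
      intro c hc
      unfold Cfsg.powerClosure at hc
      induction hc using Subgroup.closure_induction with
      | mem x hx => exact hx
      | one => exact ⟨1, Subgroup.one_mem _, (one_pow _).symm⟩
      | mul x y _ _ hx hy =>
        obtain ⟨d₁, hd₁, rfl⟩ := hx
        obtain ⟨d₂, hd₂, rfl⟩ := hy
        obtain ⟨z, hz⟩ := reg_pow_mul (Helper23.regular_subgroup hG H) n ⟨d₁, hd₁⟩ ⟨d₂, hd₂⟩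
        refine ⟨z, z.2, ?_⟩
        have := congrArg Subtype.val hz
        simpa using this
      | inv x _ hx =>
        obtain ⟨d, hd, rfl⟩ := hx
        exact ⟨d⁻¹, Subgroup.inv_mem _ hd, (inv_pow d _).symm⟩
    intro c hc
    exact key c hc

/-- In a regular `p`-group, commutators of `p^n`-th powers lie in the subgroup generated by the
`p^n`-th powers of the derived subgroup. -/
theorem reg_comm_pow {K : Type u} [Group K] [Finite K] {p : ℕ} [Fact p.Prime]
    (hreg : Cfsg.IsRegularPGroup p K) (n : ℕ) (a b : K) :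
    a ^ p ^ n * b ^ p ^ n * (a ^ p ^ n)⁻¹ * (b ^ p ^ n)⁻¹
      ∈ Cfsg.powerClosure p n ⁅(⊤ : Subgroup K), ⊤⁆ := by
  obtain ⟨N, hN⟩ : ∃ N : Subgroup K, N = Cfsg.powerClosure p n ⁅(⊤ : Subgroup K), ⊤⁆ := ⟨_, rfl⟩
  rw [← hN]
  have hgen : ∀ d ∈ (⁅(⊤ : Subgroup K), ⊤⁆ : Subgroup K), d ^ p ^ n ∈ N := by
    intro d hd
    rw [hN]
    exact Subgroup.subset_closure ⟨d, hd, rfl⟩
  haveI hNn : N.Normal := by
    refine ⟨fun x hx g => ?_⟩
    have hle : N.map (MulAut.conj g).toMonoidHom ≤ N := by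
      rw [hN]
      unfold Cfsg.powerClosure
      rw [MonoidHom.map_closure, Subgroup.closure_le]
      rintro _ ⟨y, ⟨d, hd, rfl⟩, rfl⟩
      apply Subgroup.subset_closure
      refine ⟨g * d * g⁻¹, (Subgroup.commutator_normal ⊤ ⊤).conj_mem d hd g, ?_⟩
      show g * d ^ p ^ n * g⁻¹ = (g * d * g⁻¹) ^ p ^ n
      rw [conj_pow]
    exact hle ⟨x, hx, rfl⟩
  have hQ : Cfsg.IsRegularPGroup p (K ⧸ N) := S0641.result hreg N
  have hcomm : ∀ x y : K, (x⁻¹ * y⁻¹ * x * y) ^ p ^ n ∈ N := by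
    intro x y
    apply hgen
    have := Subgroup.commutator_mem_commutator (Subgroup.mem_top x⁻¹) (Subgroup.mem_top y⁻¹)
    rw [commutatorElement_def, inv_inv, inv_inv] at this
    exact this
  have h1 := (S4224.result hQ (QuotientGroup.mk' N a) (QuotientGroup.mk' N (b ^ p ^ n)) n).mpr (by
    rw [← map_inv, ← map_inv, ← map_mul, ← map_mul, ← map_mul, ← map_pow]
    exact (QuotientGroup.eq_one_iff _).mpr (hcomm a (b ^ p ^ n)))
  rw [← map_pow, ← map_mul, ← map_mul] at h1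
  have h2 := QuotientGroup.eq.mp h1
  have e : a ^ p ^ n * b ^ p ^ n * (a ^ p ^ n)⁻¹ * (b ^ p ^ n)⁻¹
      = (b ^ p ^ n * a ^ p ^ n) * ((a ^ p ^ n * b ^ p ^ n)⁻¹ * (b ^ p ^ n * a ^ p ^ n))⁻¹
        * (b ^ p ^ n * a ^ p ^ n)⁻¹ := by group
  rw [e]
  exact hNn.conj_mem _ (N.inv_mem h2) _

/-- In a regular `p`-group: `[℧_n(H), ℧_n(H)] ≤ ℧_n(H')`. -/
theorem reg_comm_powerClosure {G : Type u} [Group G] [Finite G] {p : ℕ} [Fact p.Prime]
    (hG : Cfsg.IsRegularPGroup p G) (H : Subgroup G) (n : ℕ) :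
    ⁅Cfsg.powerClosure p n H, Cfsg.powerClosure p n H⁆ ≤ Cfsg.powerClosure p n ⁅H, H⁆ := by
  have hH := Helper23.regular_subgroup hG H
  have htop : (⊤ : Subgroup ↥H).map H.subtype = H := by
    rw [← MonoidHom.range_eq_map, Subgroup.range_subtype]
  have h1 : Cfsg.powerClosure p n H = (Cfsg.powerClosure p n (⊤ : Subgroup ↥H)).map H.subtype := by
    rw [← Helper23.powerClosure_map, htop]
  have h2 : Cfsg.powerClosure p n ⁅H, H⁆
      = (Cfsg.powerClosure p n ⁅(⊤ : Subgroup ↥H), ⊤⁆).map H.subtype := by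
    rw [← Helper23.powerClosure_map, Subgroup.map_commutator, htop]
  rw [h1, h2, ← Subgroup.map_commutator]
  apply Subgroup.map_mono
  rw [Subgroup.commutator_le]
  intro g₁ hg₁ g₂ hg₂
  have hset := reg_powerClosure_eq hH (⊤ : Subgroup ↥H) n
  have m1 : g₁ ∈ {y : ↥H | ∃ x ∈ (⊤ : Subgroup ↥H), y = x ^ (p ^ n)} := by rw [hset]; exact hg₁
  have m2 : g₂ ∈ {y : ↥H | ∃ x ∈ (⊤ : Subgroup ↥H), y = x ^ (p ^ n)} := by rw [hset]; exact hg₂
  obtain ⟨a, -, rfl⟩ := m1
  obtain ⟨b, -, rfl⟩ := m2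
  rw [commutatorElement_def]
  exact reg_comm_pow hH n a b

end Cfsg.Agent.Helper21
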