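import Mathlib
import Cfsg.Agent.Helper21.RegPow
import Cfsg.Agent.S4210

set_option autoImplicit false
set_option linter.style.haveILetI false
open Cfsg

namespace Cfsg.Agent.Helper21

universe u

/-- the image of the commutator subgroup of `⟨a, b⟩` under a homomorphism -/
theorem map_comm_closure_pair {G H : Type*} [Group G] [Group H] (f : G →* H) (a b : G) :
    (⁅Subgroup.closure ({a, b} : Set G), Subgroup.closure ({a, b} : Set G)⁆).map f
      = ⁅Subgroup.closure ({f a, f b} : Set H), Subgroup.closure ({f a, f b} : Set H)⁆ := by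
  rw [Subgroup.map_commutator, MonoidHom.map_closure, Set.image_pair]

/-- the weak regularity condition passes to subgroups -/
theorem weakreg_subgroup {K : Type*} [Group K] {p : ℕ}
    (hW : ∀ a b : K, ∃ c ∈ ⁅Subgroup.closure ({a, b} : Set K), Subgroup.closure ({a, b} : Set K)⁆,
      (a * b) ^ p = a ^ p * b ^ p * c ^ p) (L : Subgroup K) :
    ∀ a b : ↥L, ∃ c ∈ ⁅Subgroup.closure ({a, b} : Set ↥L), Subgroup.closure ({a, b} : Set ↥L)⁆,
      (a * b) ^ p = a ^ p * b ^ p * c ^ p := by
  intro a b
  obtain ⟨c, hc, hceq⟩ := hW (a : K) (b : K)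
  have h1 := map_comm_closure_pair L.subtype a b
  have hc' : c ∈ (⁅Subgroup.closure ({a, b} : Set ↥L),
      Subgroup.closure ({a, b} : Set ↥L)⁆).map L.subtype := by
    rw [h1]; exact hc
  obtain ⟨c', hc'mem, rfl⟩ := hc'
  refine ⟨c', hc'mem, ?_⟩
  apply Subtype.ext
  simpa using hceq

/-- the weak regularity condition passes to quotients -/
theorem weakreg_quotient {K : Type*} [Group K] {p : ℕ}
    (hW : ∀ a b : K, ∃ c ∈ ⁅Subgroup.closure ({a, b} : Set K), Subgroup.closure ({a, b} : Set K)⁆,
      (a * b) ^ p = a ^ p * b ^ p * c ^ p) (N : Subgroup K) [N.Normal] :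
    ∀ a b : K ⧸ N, ∃ c ∈ ⁅Subgroup.closure ({a, b} : Set (K ⧸ N)),
        Subgroup.closure ({a, b} : Set (K ⧸ N))⁆,
      (a * b) ^ p = a ^ p * b ^ p * c ^ p := by
  intro a b
  obtain ⟨a, rfl⟩ := QuotientGroup.mk'_surjective N a
  obtain ⟨b, rfl⟩ := QuotientGroup.mk'_surjective N b
  obtain ⟨c, hc, hceq⟩ := hW a b
  refine ⟨QuotientGroup.mk' N c, ?_, ?_⟩
  · rw [← map_comm_closure_pair]
    exact Subgroup.mem_map_of_mem _ hc
  · rw [← map_mul, ← map_pow, hceq]
    simp only [map_mul, map_pow]

/-- regularity statement for a pair of elements of a regular subgroup -/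
theorem reg_of_subgroup {K : Type*} [Group K] {p : ℕ} (L : Subgroup K)
    (hL : Cfsg.IsRegularPGroup p ↥L) (a b : K) (ha : a ∈ L) (hb : b ∈ L) (n : ℕ) :
    ∃ c ∈ Cfsg.powerClosure p n
        ⁅Subgroup.closure ({a, b} : Set K), Subgroup.closure ({a, b} : Set K)⁆,
      (a * b) ^ (p ^ n) = a ^ (p ^ n) * b ^ (p ^ n) * c := by
  obtain ⟨c, hc, hceq⟩ := hL.2 ⟨a, ha⟩ ⟨b, hb⟩ n
  refine ⟨(c : K), ?_, ?_⟩
  · have h1 := map_comm_closure_pair L.subtype (⟨a, ha⟩ : ↥L) ⟨b, hb⟩
    have h2 := Helper23.powerClosure_map L.subtype p n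
      ⁅Subgroup.closure ({(⟨a, ha⟩ : ↥L), ⟨b, hb⟩} : Set ↥L),
        Subgroup.closure ({(⟨a, ha⟩ : ↥L), ⟨b, hb⟩} : Set ↥L)⁆
    rw [h1] at h2
    have h3 : (c : K) ∈ (Cfsg.powerClosure p n
      ⁅Subgroup.closure ({(⟨a, ha⟩ : ↥L), ⟨b, hb⟩} : Set ↥L),
        Subgroup.closure ({(⟨a, ha⟩ : ↥L), ⟨b, hb⟩} : Set ↥L)⁆).map L.subtype :=
      Subgroup.mem_map_of_mem _ hc
    rw [← h2] at h3
    exact h3
  · have := congrArg Subtype.val hceq
    simpa using this

/-- Kemhadze: the weak regularity condition (one commutator, exponent `p`) implies regularity. -/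
theorem weakreg_regular_aux (p : ℕ) [Fact p.Prime] :
    ∀ (N : ℕ) (K : Type u) [Group K] [Finite K], Nat.card K ≤ N → IsPGroup p K →
      (∀ a b : K, ∃ c ∈ ⁅Subgroup.closure ({a, b} : Set K), Subgroup.closure ({a, b} : Set K)⁆,
        (a * b) ^ p = a ^ p * b ^ p * c ^ p) → Cfsg.IsRegularPGroup p K := by
  intro N
  induction N with
  | zero =>
    intro K _ _ hc
    have := Nat.card_pos (α := K)
    omega
  | succ N ih =>
    intro K _ _ hcard hK hW
    refine ⟨hK, ?_⟩
    have hsubreg : ∀ L : Subgroup K, L ≠ ⊤ → Cfsg.IsRegularPGroup p ↥L := by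
      intro L hL
      have hlt := Helper23.card_lt_of_ne_top L hL
      exact ih ↥L (by omega) (hK.to_subgroup L) (weakreg_subgroup hW L)
    intro a b
    by_cases hab : a * b = b * a
    · intro n
      exact ⟨1, Subgroup.one_mem _, by
        rw [mul_one]; exact (show Commute a b from hab).mul_pow (p ^ n)⟩
    by_cases hL : Subgroup.closure ({a, b} : Set K) = ⊤
    · rw [hL]
      haveI hnil : Group.IsNilpotent K := hK.isNilpotent
      haveI : Nontrivial K := ⟨⟨a * b, b * a, hab⟩⟩
      obtain ⟨D, hDdef⟩ : ∃ D : Subgroup K, D = ⁅(⊤ : Subgroup K), ⊤⁆ := ⟨_, rfl⟩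
      rw [← hDdef]
      have hDn : D.Normal := hDdef ▸ Subgroup.commutator_normal ⊤ ⊤
      have hDne : D ≠ ⊤ := hDdef ▸ ne_of_lt (Group.IsSolvable.commutator_lt_top_of_nontrivial K)
      have hcommD : ∀ x y : K, x * y * x⁻¹ * y⁻¹ ∈ D := by
        intro x y
        have := Subgroup.commutator_mem_commutator (Subgroup.mem_top x) (Subgroup.mem_top y)
        rw [commutatorElement_def, ← hDdef] at this
        exact this
      have hregD := hsubreg D hDne
      -- elements of `℧_n(D)` are powers
      have hDpow : ∀ n : ℕ, ∀ c ∈ Cfsg.powerClosure p n D, ∃ d ∈ D, c = d ^ p ^ n := by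
        intro n c hc
        have htop : (⊤ : Subgroup ↥D).map D.subtype = D := by
          rw [← MonoidHom.range_eq_map, Subgroup.range_subtype]
        have h1 : Cfsg.powerClosure p n D
            = (Cfsg.powerClosure p n (⊤ : Subgroup ↥D)).map D.subtype := by
          rw [← Helper23.powerClosure_map, htop]
        rw [h1] at hc
        obtain ⟨c', hc', rfl⟩ := hc
        have hset := reg_powerClosure_eq hregD (⊤ : Subgroup ↥D) n
        have m1 : c' ∈ {y : ↥D | ∃ x ∈ (⊤ : Subgroup ↥D), y = x ^ (p ^ n)} := by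
          rw [hset]; exact hc'
        obtain ⟨x, -, rfl⟩ := m1
        exact ⟨(x : K), x.2, by simp⟩
      have hDgen : ∀ n : ℕ, ∀ d ∈ D, d ^ p ^ n ∈ Cfsg.powerClosure p n D := fun n d hd =>
        Subgroup.subset_closure ⟨d, hd, rfl⟩
      -- the subgroup `⟨a⟩ D`
      have hA1 : Subgroup.zpowers a ⊔ D ≠ ⊤ := by
        intro hM
        have h1 : Subgroup.zpowers a ⊔ frattini K = ⊤ := by
          rw [eq_top_iff, ← hM, hDdef]
          exact sup_le_sup_left (S0586.comm_le_frattini) _
        have h2 := frattini_nongenerating h1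
        have ha : a ∈ Subgroup.zpowers a := Subgroup.mem_zpowers a
        have hb : b ∈ Subgroup.zpowers a := h2 ▸ Subgroup.mem_top b
        obtain ⟨j, hj⟩ := Subgroup.mem_zpowers_iff.mp hb
        have h := (Commute.zpow_zpow_self a 1 j).eq
        rw [hj, zpow_one] at h
        exact hab h
      have hregA := hsubreg _ hA1
      have hC1 : ∀ n : ℕ, (∀ d ∈ D, d ^ p ^ n = 1) → ∀ g : K, a ^ p ^ n * g = g * a ^ p ^ n := by
        intro n hexp g
        have ha1 : a ∈ Subgroup.zpowers a ⊔ D := Subgroup.mem_sup_left (Subgroup.mem_zpowers a)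
        have ha2 : g⁻¹ * a * g ∈ Subgroup.zpowers a ⊔ D := by
          have e : g⁻¹ * a * g = a * (a⁻¹ * g⁻¹ * a⁻¹⁻¹ * g⁻¹⁻¹) := by group
          rw [e]
          exact Subgroup.mul_mem _ ha1 (Subgroup.mem_sup_right (hcommD a⁻¹ g⁻¹))
        have h1 := (S4210.result hregA ⟨a, ha1⟩ ⟨g⁻¹ * a * g, ha2⟩ n).mpr (by
          apply Subtype.ext
          have e : a * (g⁻¹ * a * g)⁻¹ = a * g⁻¹ * a⁻¹ * g⁻¹⁻¹ := by group
          have := hexp _ (hcommD a g⁻¹)
          simp only [Subgroup.coe_pow, Subgroup.coe_mul, Subgroup.coe_inv, Subgroup.coe_one]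
          rw [e]; exact this)
        have h2 : a ^ p ^ n = (g⁻¹ * a * g) ^ p ^ n := by
          have := congrArg Subtype.val h1
          simpa using this
        have h3 : (g⁻¹ * a * g) ^ p ^ n = g⁻¹ * a ^ p ^ n * g := by
          have := conj_pow (i := p ^ n) (a := g⁻¹) (b := a)
          simpa using this
        rw [h3] at h2
        have h4 : g * (g⁻¹ * a ^ p ^ n * g) = a ^ p ^ n * g := by group
        rw [← h2] at h4
        exact h4.symm
      intro n
      induction n with
      | zero => exact ⟨1, Subgroup.one_mem _, by simp⟩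
      | succ n ihn =>
        obtain ⟨c, hc, hceq⟩ := ihn
        obtain ⟨d, hd, rfl⟩ := hDpow n c hc
        by_cases hexp : ∀ d ∈ D, d ^ p ^ n = 1
        · refine ⟨1, Subgroup.one_mem _, ?_⟩
          rw [hexp d hd, mul_one] at hceq
          have hcomm : Commute (a ^ p ^ n) (b ^ p ^ n) := hC1 n hexp _
          rw [mul_one, pow_succ, pow_mul, pow_mul, pow_mul, hceq, hcomm.mul_pow]
        · -- the quotient by `℧_n(D)`
          obtain ⟨M, hMdef⟩ : ∃ M : Subgroup K, M = Cfsg.powerClosure p n D := ⟨_, rfl⟩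
          have hMne : M ≠ ⊥ := by
            intro hM
            apply hexp
            intro d hd
            have := hDgen n d hd
            rw [← hMdef, hM, Subgroup.mem_bot] at this
            exact this
          haveI hMn : M.Normal := by
            refine ⟨fun x hx g => ?_⟩
            have hle : M.map (MulAut.conj g).toMonoidHom ≤ M := by
              rw [hMdef]
              unfold Cfsg.powerClosure
              rw [MonoidHom.map_closure, Subgroup.closure_le]
              rintro _ ⟨y, ⟨d, hd, rfl⟩, rfl⟩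
              apply Subgroup.subset_closure
              refine ⟨g * d * g⁻¹, hDn.conj_mem d hd g, ?_⟩
              show g * d ^ p ^ n * g⁻¹ = (g * d * g⁻¹) ^ p ^ n
              rw [conj_pow]
            exact hle ⟨x, hx, rfl⟩
          have hQcard : Nat.card (K ⧸ M) < Nat.card K := by
            have h1 := Subgroup.card_mul_index M
            rw [Subgroup.index_eq_card] at h1
            have h2 : 1 < Nat.card M := by
              rw [Subgroup.one_lt_card_iff_ne_bot]; exact hMne
            have h3 : 0 < Nat.card (K ⧸ M) := Nat.card_pos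
            nlinarith
          have hregQ : Cfsg.IsRegularPGroup p (K ⧸ M) :=
            ih (K ⧸ M) (by omega) (hK.to_quotient M) (weakreg_quotient hW M)
          have hcen : ∀ x y : K, QuotientGroup.mk' M (x ^ p ^ n) * QuotientGroup.mk' M y
              = QuotientGroup.mk' M y * QuotientGroup.mk' M (x ^ p ^ n) := by
            intro x y
            rw [map_pow]
            apply (S4224.result hregQ (QuotientGroup.mk' M x) (QuotientGroup.mk' M y) n).mpr
            rw [← map_inv, ← map_inv, ← map_mul, ← map_mul, ← map_mul, ← map_pow]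
            apply (QuotientGroup.eq_one_iff _).mpr
            rw [hMdef]
            apply hDgen
            have := hcommD x⁻¹ y⁻¹
            rwa [inv_inv, inv_inv] at this
          -- commutators of elements central modulo `M` lie in `M`
          have hcomm_le : ∀ x y : K,
              (∀ g : K, QuotientGroup.mk' M x * QuotientGroup.mk' M g
                = QuotientGroup.mk' M g * QuotientGroup.mk' M x) →
              (∀ g : K, QuotientGroup.mk' M y * QuotientGroup.mk' M g
                = QuotientGroup.mk' M g * QuotientGroup.mk' M y) →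
              ⁅Subgroup.closure ({x, y} : Set K), Subgroup.closure ({x, y} : Set K)⁆ ≤ M := by
            intro x y hx hy
            have hle : Subgroup.closure ({x, y} : Set K)
                ≤ (Subgroup.center (K ⧸ M)).comap (QuotientGroup.mk' M) := by
              rw [Subgroup.closure_le]
              intro w hw
              rw [Set.mem_insert_iff, Set.mem_singleton_iff] at hw
              rw [SetLike.mem_coe, Subgroup.mem_comap, Subgroup.mem_center_iff]
              intro g
              obtain ⟨g, rfl⟩ := QuotientGroup.mk'_surjective M g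
              rcases hw with rfl | rfl
              · exact (hx g).symm
              · exact (hy g).symm
            rw [Subgroup.commutator_le]
            intro g₁ hg₁ g₂ _
            rw [commutatorElement_def]
            have h1 := Subgroup.mem_center_iff.mp (Subgroup.mem_comap.mp (hle hg₁))
              (QuotientGroup.mk' M g₂)
            apply (QuotientGroup.eq_one_iff _).mp
            have e : QuotientGroup.mk' M (g₁ * g₂ * g₁⁻¹ * g₂⁻¹) = 1 := by
              rw [map_mul, map_mul, map_mul, map_inv, map_inv, ← h1]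
              group
            exact e
          obtain ⟨e₂, he₂, heq₂⟩ := hW (a ^ p ^ n) (b ^ p ^ n)
          obtain ⟨e₁, he₁, heq₁⟩ := hW (a ^ p ^ n * b ^ p ^ n) (d ^ p ^ n)
          have he₂M : e₂ ∈ M := hcomm_le _ _ (hcen a) (hcen b) he₂
          have hzM : ∀ g : K, QuotientGroup.mk' M (d ^ p ^ n) * QuotientGroup.mk' M g
              = QuotientGroup.mk' M g * QuotientGroup.mk' M (d ^ p ^ n) := by
            intro g
            have : QuotientGroup.mk' M (d ^ p ^ n) = 1 :=
              (QuotientGroup.eq_one_iff _).mpr (hMdef ▸ hDgen n d hd)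
            rw [this, one_mul, mul_one]
          have hxyM : ∀ g : K, QuotientGroup.mk' M (a ^ p ^ n * b ^ p ^ n) * QuotientGroup.mk' M g
              = QuotientGroup.mk' M g * QuotientGroup.mk' M (a ^ p ^ n * b ^ p ^ n) := by
            intro g
            rw [map_mul, mul_assoc, hcen b g, ← mul_assoc, hcen a g, mul_assoc]
          have he₁M : e₁ ∈ M := hcomm_le _ _ hxyM hzM he₁
          rw [hMdef] at he₁M he₂M
          obtain ⟨f₁, hf₁, rfl⟩ := hDpow n e₁ he₁M
          obtain ⟨f₂, hf₂, rfl⟩ := hDpow n e₂ he₂M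
          refine ⟨f₂ ^ p ^ (n + 1) * d ^ p ^ (n + 1) * f₁ ^ p ^ (n + 1), ?_, ?_⟩
          · exact Subgroup.mul_mem _ (Subgroup.mul_mem _ (hDgen _ f₂ hf₂) (hDgen _ d hd))
              (hDgen _ f₁ hf₁)
          · have e1 : (a * b) ^ p ^ (n + 1) = ((a * b) ^ p ^ n) ^ p := by rw [pow_succ, pow_mul]
            rw [e1, hceq, heq₁, heq₂]
            simp only [← pow_mul, ← pow_succ, mul_assoc]
    · have hregL := hsubreg _ hL
      intro n
      exact reg_of_subgroup _ hregL a b (Subgroup.subset_closure (by simp))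
        (Subgroup.subset_closure (by simp)) n

theorem weakreg_regular {K : Type u} [Group K] [Finite K] {p : ℕ} [Fact p.Prime]
    (hK : IsPGroup p K)
    (hW : ∀ a b : K, ∃ c ∈ ⁅Subgroup.closure ({a, b} : Set K), Subgroup.closure ({a, b} : Set K)⁆,
      (a * b) ^ p = a ^ p * b ^ p * c ^ p) : Cfsg.IsRegularPGroup p K :=
  weakreg_regular_aux p (Nat.card K) K le_rfl hK hW

end Cfsg.Agent.Helper21
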