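import Mathlib
import Cfsg.Prelude.Def_PLocal
import Cfsg.Agent.Helper21.Collect
import Cfsg.Agent.Helper21.RegWeak
import Cfsg.Agent.Helper21.RegPow

set_option autoImplicit false
set_option linter.style.haveILetI false

/-! Groups of class less than `p` are regular. -/

namespace Cfsg.Agent.Helper21

universe u

/-- The class bound passes to subgroups. -/
theorem lcs_subgroup_eq_bot {K : Type*} [Group K] (H : Subgroup K) (n : ℕ)
    (h : (⊤ : Subgroup K).lowerCentralSeries n = ⊥) :
    (⊤ : Subgroup ↥H).lowerCentralSeries n = ⊥ := by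
  have h1 : ((⊤ : Subgroup ↥H).lowerCentralSeries n).map H.subtype ≤ ⊥ := by
    rw [Subgroup.top_subtype_lowerCentralSeries, ← h]
    exact Subgroup.lowerCentralSeries_mono n le_top
  exact (Subgroup.map_eq_bot_iff_of_injective _ H.subtype_injective).mp (le_bot_iff.mp h1)

theorem class_lt_regular_aux (p : ℕ) [Fact p.Prime] :
    ∀ (N : ℕ) (K : Type u) [Group K] [Finite K], Nat.card K ≤ N → IsPGroup p K →
      (⊤ : Subgroup K).lowerCentralSeries (p - 1) = ⊥ → Cfsg.IsRegularPGroup p K := by
  intro N
  induction N with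
  | zero =>
    intro K _ _ hc
    have := Nat.card_pos (α := K)
    omega
  | succ N ih =>
    intro K _ _ hc hK hcl
    have hp : p.Prime := Fact.out
    apply weakreg_regular hK
    intro a b
    by_cases htriv : Subsingleton K
    · refine ⟨1, one_mem _, ?_⟩
      rw [Subsingleton.elim a 1, Subsingleton.elim b 1]
      simp
    rw [not_subsingleton_iff_nontrivial] at htriv
    haveI := htriv
    haveI : Group.IsNilpotent K := hK.isNilpotent
    obtain ⟨H, hH⟩ : ∃ H : Subgroup K, H = Subgroup.closure ({a, b} : Set K) := ⟨_, rfl⟩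
    rw [← hH]
    obtain ⟨D, hD⟩ : ∃ D : Subgroup K, D = ⁅H, H⁆ := ⟨_, rfl⟩
    rw [← hD]
    have hDlt : Nat.card D ≤ N := by
      have h1 : D ≤ commutator K := by
        rw [hD, commutator_def]
        exact Subgroup.commutator_mono le_top le_top
      have h2 : commutator K < ⊤ := Group.IsSolvable.commutator_lt_top_of_nontrivial K
      have h3 : Nat.card D < Nat.card K := by
        have h4 := Subgroup.card_le_card_group D
        have h5 : Nat.card D ≠ Nat.card K := fun h6 => by
          have h7 := (Subgroup.card_eq_iff_eq_top D).1 h6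
          rw [h7] at h1
          exact absurd (top_le_iff.mp h1) (ne_of_lt h2)
        omega
      omega
    have hDreg : Cfsg.IsRegularPGroup p ↥D :=
      ih ↥D hDlt (hK.to_subgroup D) (lcs_subgroup_eq_bot D _ hcl)
    -- the collection formula in `H`
    have ha : a ∈ H := by rw [hH]; exact Subgroup.subset_closure (by simp)
    have hb : b ∈ H := by rw [hH]; exact Subgroup.subset_closure (by simp)
    obtain ⟨E, hE⟩ : ∃ E : Subgroup ↥H,
        E = Subgroup.closure {y : ↥H | ∃ x ∈ commutator ↥H, y = x ^ p} := ⟨_, rfl⟩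
    have hcoll := class_lt_pow_mul hp (lcs_subgroup_eq_bot H _ hcl) E
      (fun x hx => by rw [hE]; exact Subgroup.subset_closure ⟨x, hx, rfl⟩) ⟨a, ha⟩ ⟨b, hb⟩
    have hmapc : ∀ x ∈ commutator ↥H, (x : K) ∈ D := by
      intro x hx
      have h1 : (commutator ↥H).map H.subtype = D := by
        rw [commutator_def, Subgroup.map_commutator, ← MonoidHom.range_eq_map,
          Subgroup.range_subtype, hD]
      rw [← h1]
      exact Subgroup.mem_map_of_mem _ hx
    have hEpow : ∀ e ∈ E, ∃ c ∈ D, (e : K) = c ^ p := by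
      intro e he
      rw [hE] at he
      induction he using Subgroup.closure_induction with
      | mem y hy =>
        obtain ⟨x, hx, rfl⟩ := hy
        exact ⟨x, hmapc x hx, by simp⟩
      | one => exact ⟨1, one_mem _, by simp⟩
      | mul y z _ _ hy hz =>
        obtain ⟨c1, hc1, e1⟩ := hy
        obtain ⟨c2, hc2, e2⟩ := hz
        obtain ⟨x, hx⟩ := reg_pow_mul hDreg 1 ⟨c1, hc1⟩ ⟨c2, hc2⟩
        refine ⟨x, x.2, ?_⟩
        have := congrArg Subtype.val hx
        simp only [pow_one, Subgroup.coe_mul, Subgroup.coe_pow] at this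
        rw [Subgroup.coe_mul, e1, e2, this]
      | inv y _ hy =>
        obtain ⟨c1, hc1, e1⟩ := hy
        exact ⟨c1⁻¹, inv_mem hc1, by rw [Subgroup.coe_inv, e1, inv_pow]⟩
    obtain ⟨c, hc, hce⟩ := hEpow _ hcoll
    refine ⟨c, hc, ?_⟩
    rw [← hce]
    simp only [Subgroup.coe_mul, Subgroup.coe_pow, Subgroup.coe_inv, inv_pow]
    group

/-- A finite `p`-group of class less than `p` is regular. -/
theorem class_lt_regular {K : Type u} [Group K] [Finite K] {p : ℕ} [Fact p.Prime]
    (hK : IsPGroup p K) (hcl : (⊤ : Subgroup K).lowerCentralSeries (p - 1) = ⊥) :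
    Cfsg.IsRegularPGroup p K :=
  class_lt_regular_aux p (Nat.card K) K le_rfl hK hcl

end Cfsg.Agent.Helper21
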