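import Mathlib
import Cfsg.Prelude.Def_Local
import Cfsg.Agent.S3734
import Cfsg.Agent.S3735
import Cfsg.Agent.Helper18.CharP
import Cfsg.Agent.Helper10.PComp

set_option autoImplicit false
set_option linter.style.haveILetI false

namespace Cfsg.Agent.Helper21

/-- The image of `O_{p'}(H)` in the ambient group, with the properties used for offenders. -/
theorem ppc_setup {G : Type*} [Group G] [Finite G] {p : ℕ} [Fact p.Prime] (V H : Subgroup G)
    (hf : H ⊓ Subgroup.centralizer (V : Set G) = ⊥)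
    (hS1 : Subgroup.centralizer (Cfsg.pPrimeCore p ↥H : Set ↥H) ≤ Cfsg.pPrimeCore p ↥H) :
    ∃ K : Subgroup G, K ≤ H ∧ (Nat.card K).Coprime p ∧
      H ≤ Subgroup.normalizer (K : Set G) ∧ K ⊓ Subgroup.centralizer (V : Set G) = ⊥ ∧
      ∀ A : Subgroup G, A ≤ H → IsPGroup p A → A ⊓ Subgroup.centralizer (K : Set G) = ⊥ := by
  have hp := (Fact.out : p.Prime)
  obtain ⟨K, hKdef⟩ : ∃ K : Subgroup G, K = (Cfsg.pPrimeCore p ↥H).map H.subtype := ⟨_, rfl⟩
  have hKH : K ≤ H := by rw [hKdef]; exact Subgroup.map_subtype_le _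
  have hKcard : (Nat.card K).Coprime p := by
    rw [hKdef, Subgroup.card_map_of_injective H.subtype_injective]
    exact Cfsg.Agent.Helper10.pPrimeCore_coprime p ↥H
  have hKn : (Cfsg.pPrimeCore p ↥H).Normal := Subgroup.sSup_normal _ (fun _ h => h.1)
  have hsub : K.subgroupOf H = Cfsg.pPrimeCore p ↥H := by
    rw [hKdef]; exact Subgroup.comap_map_eq_self_of_injective H.subtype_injective _
  have hHK : H ≤ Subgroup.normalizer (K : Set G) := by
    rw [← Subgroup.normal_subgroupOf_iff_le_normalizer hKH, hsub]; exact hKn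
  refine ⟨K, hKH, hKcard, hHK, le_bot_iff.mp ((inf_le_inf_right _ hKH).trans (le_of_eq hf)), ?_⟩
  intro A hAH hAp
  rw [Subgroup.eq_bot_iff_forall]
  intro a ha
  obtain ⟨haA, haC⟩ := Subgroup.mem_inf.mp ha
  rw [Subgroup.mem_centralizer_iff] at haC
  have h1 : (⟨a, hAH haA⟩ : ↥H) ∈ Subgroup.centralizer (Cfsg.pPrimeCore p ↥H : Set ↥H) := by
    rw [Subgroup.mem_centralizer_iff]
    intro h hh
    have h2 : (h : G) ∈ K := by
      have : h ∈ K.subgroupOf H := by rw [hsub]; exact hh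
      exact Subgroup.mem_subgroupOf.mp this
    exact Subtype.ext (haC _ h2)
  have h3 := hS1 h1
  rw [← hsub, Subgroup.mem_subgroupOf] at h3
  have h4 : orderOf (⟨a, h3⟩ : ↥K) ∣ Nat.card K := orderOf_dvd_natCard _
  rw [Subgroup.orderOf_mk] at h4
  obtain ⟨k, hk⟩ := hAp ⟨a, haA⟩
  have hk' : a ^ p ^ k = 1 := congrArg Subtype.val hk
  have h5 : orderOf a ∣ p ^ k := orderOf_dvd_of_pow_eq_one hk'
  have h6 := Nat.eq_one_of_dvd_coprimes (Nat.Coprime.pow_right k hKcard) h4 h5
  exact orderOf_eq_one_iff.mp h6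

/-- One step of the offender bound: a hyperplane `B` of `A` whose fixed points on `V` are
strictly larger. -/
theorem offender_step {G : Type*} [Group G] [Finite G] {p : ℕ} [Fact p.Prime] (V K : Subgroup G)
    (hVp : IsPGroup p V) (hK : (Nat.card K).Coprime p)
    (hKV : K ≤ Subgroup.normalizer (V : Set G))
    (hKf : K ⊓ Subgroup.centralizer (V : Set G) = ⊥) (A : Subgroup G)
    (hAcomm : ∀ a ∈ A, ∀ b ∈ A, a * b = b * a) (hApow : ∀ a ∈ A, a ^ p = 1)
    (hAK : A ≤ Subgroup.normalizer (K : Set G)) (hAV : A ≤ Subgroup.normalizer (V : Set G))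
    (hAf : A ⊓ Subgroup.centralizer (K : Set G) = ⊥) (hA1 : A ≠ ⊥) :
    ∃ B : Subgroup G, B ≤ A ∧ ∃ a ∈ A, B ⊔ Subgroup.zpowers a = A ∧ a ∉ B ∧
      Nat.card A ≤ p * Nat.card B ∧
      p * Nat.card ↥(V ⊓ Subgroup.centralizer (A : Set G)) ≤
        Nat.card ↥(V ⊓ Subgroup.centralizer (B : Set G)) := by
  classical
  have hp := (Fact.out : p.Prime)
  have hAab : IsMulCommutative A := ⟨⟨fun a b => Subtype.ext (hAcomm a a.2 b b.2)⟩⟩
  have hAp : IsPGroup p A := by
    rintro ⟨a, ha⟩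
    refine ⟨1, Subtype.ext ?_⟩
    show a ^ p ^ 1 = 1
    rw [pow_one]; exact hApow a ha
  have hcop : (Nat.card A).Coprime (Nat.card K) := by
    obtain ⟨k, hk⟩ := IsPGroup.iff_card.mp hAp
    rw [hk]; exact Nat.Coprime.pow_left k hK.symm
  obtain ⟨a₀, ha₀, ha₀1⟩ : ∃ a₀ ∈ A, a₀ ≠ 1 := by
    by_contra hno
    apply hA1
    rw [Subgroup.eq_bot_iff_forall]
    intro a ha
    by_contra h1
    exact hno ⟨a, ha, h1⟩
  have hgen := (Cfsg.Agent.S3734.result A K hAab hAK hcop).1
  have hexB : ∃ B : Subgroup G, (B ≤ A ∧ ∃ a ∈ A, B ⊔ Subgroup.zpowers a = A) ∧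
      ¬ (K ⊓ Subgroup.centralizer (B : Set G) ≤ Subgroup.centralizer ({a₀} : Set G)) := by
    by_contra hno
    have hall : ∀ B : Subgroup G, (B ≤ A ∧ ∃ a ∈ A, B ⊔ Subgroup.zpowers a = A) →
        K ⊓ Subgroup.centralizer (B : Set G) ≤ Subgroup.centralizer ({a₀} : Set G) := by
      intro B hB
      by_contra h1
      exact hno ⟨B, hB, h1⟩
    have h1 : K ≤ Subgroup.centralizer ({a₀} : Set G) :=
      le_trans (le_of_eq hgen.symm) (iSup₂_le (fun B hB => hall B hB))
    have h2 : a₀ ∈ A ⊓ Subgroup.centralizer (K : Set G) := by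
      refine Subgroup.mem_inf.mpr ⟨ha₀, ?_⟩
      rw [Subgroup.mem_centralizer_iff]
      intro k hk
      have h3 := h1 hk
      rw [Subgroup.mem_centralizer_singleton_iff] at h3
      exact h3
    rw [hAf, Subgroup.mem_bot] at h2
    exact ha₀1 h2
  obtain ⟨B, ⟨hBA, a, haA, hBa⟩, hnc⟩ := hexB
  have hexk : ∃ k₀ ∈ K ⊓ Subgroup.centralizer (B : Set G), a * k₀ * a⁻¹ ≠ k₀ := by
    by_contra hno
    have hall : ∀ k₀ ∈ K ⊓ Subgroup.centralizer (B : Set G), a * k₀ * a⁻¹ = k₀ := by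
      intro k₀ hk₀
      by_contra h1
      exact hno ⟨k₀, hk₀, h1⟩
    apply hnc
    intro k hk
    rw [Subgroup.mem_centralizer_singleton_iff]
    have hk' := hk
    rw [Subgroup.mem_inf, Subgroup.mem_centralizer_iff] at hk'
    have ha₀' : a₀ ∈ B ⊔ Subgroup.zpowers a := by rw [hBa]; exact ha₀
    obtain ⟨b, hb, m, hm, rfl⟩ := Cfsg.Agent.S3735.mem_sup_comm A hAab hBA
      (by rw [Subgroup.zpowers_le]; exact haA) ha₀'
    have h1 : a ∈ Subgroup.centralizer ({k} : Set G) := by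
      rw [Subgroup.mem_centralizer_singleton_iff]
      have := hall k hk
      calc a * k = (a * k * a⁻¹) * a := by group
        _ = k * a := by rw [this]
    have h2 : m ∈ Subgroup.centralizer ({k} : Set G) :=
      (Subgroup.zpowers_le.mpr h1) hm
    rw [Subgroup.mem_centralizer_singleton_iff] at h2
    have h3 : b * k = k * b := (hk'.2 b hb)
    calc k * (b * m) = (k * b) * m := by group
      _ = (b * k) * m := by rw [h3]
      _ = b * (k * m) := by group
      _ = b * (m * k) := by rw [h2]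
      _ = b * m * k := by group
  obtain ⟨k₀, hk₀, hk₀a⟩ := hexk
  have hk₀K := (Subgroup.mem_inf.mp hk₀).1
  have hk₀B := Subgroup.mem_centralizer_iff.mp (Subgroup.mem_inf.mp hk₀).2
  have haB : a ∉ B := by
    intro haB
    apply hk₀a
    have h1 := hk₀B a haB
    calc a * k₀ * a⁻¹ = (a * k₀) * a⁻¹ := rfl
      _ = (k₀ * a) * a⁻¹ := by rw [h1]
      _ = k₀ := by group
  refine ⟨B, hBA, a, haA, hBa, haB, ?_, ?_⟩
  · -- `|A| ≤ p |B|`
    obtain ⟨f, hf⟩ : ∃ f : ↥B × Fin p → G, ∀ q, f q = (q.1 : G) * a ^ (q.2 : ℕ) := ⟨_, fun _ => rfl⟩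
    have hfA : ∀ q, f q ∈ A := by
      intro q; rw [hf]; exact A.mul_mem (hBA q.1.2) (A.pow_mem haA _)
    have hsurj : Function.Surjective (fun q => (⟨f q, hfA q⟩ : ↥A)) := by
      rintro ⟨x, hx⟩
      have hx' : x ∈ B ⊔ Subgroup.zpowers a := by rw [hBa]; exact hx
      obtain ⟨b, hb, m, hm, rfl⟩ := Cfsg.Agent.S3735.mem_sup_comm A hAab hBA
        (by rw [Subgroup.zpowers_le]; exact haA) hx'
      obtain ⟨j, rfl⟩ := Subgroup.mem_zpowers_iff.mp hm
      have hpz : a ^ (p : ℤ) = 1 := by rw [zpow_natCast]; exact hApow a haA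
      have h3 : a ^ j = a ^ (j % (p : ℤ)) := zpow_eq_zpow_emod j hpz
      have hp0 : (p : ℤ) ≠ 0 := by exact_mod_cast hp.ne_zero
      have h4 : 0 ≤ j % (p : ℤ) := Int.emod_nonneg j hp0
      have h5 : j % (p : ℤ) < p := Int.emod_lt_of_pos j (by exact_mod_cast hp.pos)
      obtain ⟨n, hn⟩ := Int.eq_ofNat_of_zero_le h4
      have hnp : n < p := by
        rw [hn] at h5; exact_mod_cast h5
      refine ⟨(⟨b, hb⟩, ⟨n, hnp⟩), Subtype.ext ?_⟩
      show f (⟨b, hb⟩, ⟨n, hnp⟩) = b * a ^ j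
      rw [hf, h3, hn, zpow_natCast]
    have h1 := Nat.card_le_card_of_surjective _ hsurj
    rw [Nat.card_prod, Nat.card_fin] at h1
    rw [mul_comm]; exact h1
  · -- fixed points grow
    have hle : V ⊓ Subgroup.centralizer (A : Set G) ≤ V ⊓ Subgroup.centralizer (B : Set G) :=
      inf_le_inf_left _ (Subgroup.centralizer_le hBA)
    have hne : ¬ (V ⊓ Subgroup.centralizer (B : Set G) ≤ V ⊓ Subgroup.centralizer (A : Set G)) := by
      intro hcon
      -- `a` centralizes `V ⊓ C(B)`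
      have haV : ∀ v ∈ V ⊓ Subgroup.centralizer (B : Set G), a * v = v * a := by
        intro v hv
        have h1 := (Subgroup.mem_inf.mp (hcon hv)).2
        rw [Subgroup.mem_centralizer_iff] at h1
        exact h1 a haA
      have hk₀V : ∀ v ∈ V ⊓ Subgroup.centralizer (B : Set G),
          k₀ * v * k₀⁻¹ ∈ V ⊓ Subgroup.centralizer (B : Set G) := by
        intro v hv
        obtain ⟨hvV, hvB⟩ := Subgroup.mem_inf.mp hv
        rw [Subgroup.mem_centralizer_iff] at hvB
        refine Subgroup.mem_inf.mpr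
          ⟨(Subgroup.mem_normalizer_iff.mp (hKV hk₀K) v).mp hvV, ?_⟩
        rw [Subgroup.mem_centralizer_iff]
        intro b hb
        have h1 := hk₀B b hb
        have h2 := hvB b hb
        have h3 : b * k₀⁻¹ = k₀⁻¹ * b := by
          calc b * k₀⁻¹ = k₀⁻¹ * (k₀ * b) * k₀⁻¹ := by group
            _ = k₀⁻¹ * b := by rw [← h1]; group
        calc b * (k₀ * v * k₀⁻¹) = (b * k₀) * v * k₀⁻¹ := by group
          _ = k₀ * (b * v) * k₀⁻¹ := by rw [h1]; group
          _ = k₀ * v * (b * k₀⁻¹) := by rw [h2]; group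
          _ = k₀ * v * k₀⁻¹ * b := by rw [h3]; group
      obtain ⟨y, hydef⟩ : ∃ y, y = k₀⁻¹ * (a * k₀ * a⁻¹) := ⟨_, rfl⟩
      have hak₀K : a * k₀ * a⁻¹ ∈ K := (Subgroup.mem_normalizer_iff.mp (hAK haA) k₀).mp hk₀K
      have hyK : y ∈ K := by rw [hydef]; exact K.mul_mem (K.inv_mem hk₀K) hak₀K
      have hy1 : y ≠ 1 := by
        intro h
        rw [hydef] at h
        exact hk₀a (inv_mul_eq_one.mp h).symm
      have hainvB : ∀ b ∈ B, b * a⁻¹ = a⁻¹ * b := by
        intro b hb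
        have h1 := hAcomm a haA b (hBA hb)
        calc b * a⁻¹ = a⁻¹ * (a * b) * a⁻¹ := by group
          _ = a⁻¹ * b := by rw [h1]; group
      have hyB : ∀ b ∈ B, y * b = b * y := by
        intro b hb
        have h1 := hk₀B b hb
        have h2 := hAcomm a haA b (hBA hb)
        have h3 := hainvB b hb
        have h4 : b * k₀⁻¹ = k₀⁻¹ * b := by
          calc b * k₀⁻¹ = k₀⁻¹ * (k₀ * b) * k₀⁻¹ := by group
            _ = k₀⁻¹ * b := by rw [← h1]; group
        rw [hydef]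
        calc k₀⁻¹ * (a * k₀ * a⁻¹) * b = k₀⁻¹ * a * k₀ * (a⁻¹ * b) := by group
          _ = k₀⁻¹ * a * (k₀ * b) * a⁻¹ := by rw [← h3]; group
          _ = k₀⁻¹ * (a * b) * k₀ * a⁻¹ := by rw [← h1]; group
          _ = (k₀⁻¹ * b) * a * k₀ * a⁻¹ := by rw [h2]; group
          _ = b * (k₀⁻¹ * (a * k₀ * a⁻¹)) := by rw [← h4]; group
      have hyV : ∀ v ∈ V ⊓ Subgroup.centralizer (B : Set G), y * v = v * y := by
        intro v hv
        have h1 := haV v hv
        have h2 := haV _ (hk₀V v hv)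
        have h3 : a⁻¹ * v = v * a⁻¹ := by
          calc a⁻¹ * v = a⁻¹ * (v * a) * a⁻¹ := by group
            _ = v * a⁻¹ := by rw [← h1]; group
        rw [hydef]
        calc k₀⁻¹ * (a * k₀ * a⁻¹) * v = k₀⁻¹ * a * k₀ * (a⁻¹ * v) := by group
          _ = k₀⁻¹ * (a * (k₀ * v * k₀⁻¹)) * k₀ * a⁻¹ := by rw [h3]; group
          _ = k₀⁻¹ * ((k₀ * v * k₀⁻¹) * a) * k₀ * a⁻¹ := by rw [h2]
          _ = v * (k₀⁻¹ * (a * k₀ * a⁻¹)) := by group
      have hBp : IsPGroup p B := hAp.to_le hBA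
      have hyord : (orderOf y).Coprime p := by
        have h1 : orderOf (⟨y, hyK⟩ : ↥K) ∣ Nat.card K := orderOf_dvd_natCard _
        rw [Subgroup.orderOf_mk] at h1
        exact Nat.Coprime.coprime_dvd_left h1 hK
      have h1 := Cfsg.Agent.Helper18.thompson_AxB (p := p) V B hVp hBp (hBA.trans hAV) y
        (fun u hu => (Subgroup.mem_normalizer_iff.mp (hKV hyK) u).mp hu) hyord hyB
        (fun u hu hub => hyV u (Subgroup.mem_inf.mpr ⟨hu, by
          rw [Subgroup.mem_centralizer_iff]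
          intro b hb
          exact (hub b hb).symm⟩))
      have h2 : y ∈ K ⊓ Subgroup.centralizer (V : Set G) := by
        refine Subgroup.mem_inf.mpr ⟨hyK, ?_⟩
        rw [Subgroup.mem_centralizer_iff]
        intro v hv
        exact (h1 v hv).symm
      rw [hKf, Subgroup.mem_bot] at h2
      exact hy1 h2
    have hidx1 : (V ⊓ Subgroup.centralizer (A : Set G)).relIndex
        (V ⊓ Subgroup.centralizer (B : Set G)) ≠ 1 := by
      rw [Ne, Subgroup.relIndex_eq_one]; exact hne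
    have hmul := Subgroup.relIndex_mul_relIndex ⊥ _ _ bot_le hle
    rw [Subgroup.relIndex_bot_left, Subgroup.relIndex_bot_left] at hmul
    have hVBp : IsPGroup p ↥(V ⊓ Subgroup.centralizer (B : Set G)) := hVp.to_le inf_le_left
    obtain ⟨m, hm⟩ := IsPGroup.iff_card.mp hVBp
    have hdvd : (V ⊓ Subgroup.centralizer (A : Set G)).relIndex
        (V ⊓ Subgroup.centralizer (B : Set G)) ∣ p ^ m := by
      rw [← hm]; exact Subgroup.relIndex_dvd_card _ _
    obtain ⟨j, -, hj⟩ := (Nat.dvd_prime_pow hp).mp hdvd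
    have hj0 : j ≠ 0 := by
      rintro rfl
      rw [pow_zero] at hj
      exact hidx1 hj
    have hpj : p ≤ p ^ j := Nat.le_self_pow hj0 p
    rw [hj] at hmul
    calc p * Nat.card ↥(V ⊓ Subgroup.centralizer (A : Set G))
        = Nat.card ↥(V ⊓ Subgroup.centralizer (A : Set G)) * p := mul_comm _ _
      _ ≤ Nat.card ↥(V ⊓ Subgroup.centralizer (A : Set G)) * p ^ j := Nat.mul_le_mul_left _ hpj
      _ = _ := hmul

/-- The offender bound `|A| |C_V(A)| ≤ |V|` for elementary abelian `p`-groups acting faithfully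
on a `p'`-group which is faithful on `V`. -/
theorem offender_bound {G : Type*} [Group G] [Finite G] {p : ℕ} [Fact p.Prime] (V K : Subgroup G)
    (hVp : IsPGroup p V) (hK : (Nat.card K).Coprime p)
    (hKV : K ≤ Subgroup.normalizer (V : Set G))
    (hKf : K ⊓ Subgroup.centralizer (V : Set G) = ⊥) :
    ∀ (n : ℕ) (A : Subgroup G), Nat.card A ≤ n →
      (∀ a ∈ A, ∀ b ∈ A, a * b = b * a) → (∀ a ∈ A, a ^ p = 1) →
      A ≤ Subgroup.normalizer (K : Set G) → A ≤ Subgroup.normalizer (V : Set G) →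
      A ⊓ Subgroup.centralizer (K : Set G) = ⊥ →
      Nat.card A * Nat.card ↥(V ⊓ Subgroup.centralizer (A : Set G)) ≤ Nat.card V := by
  have hp := (Fact.out : p.Prime)
  intro n
  induction n with
  | zero =>
    intro A hA
    have := Nat.card_pos (α := A)
    omega
  | succ n ih =>
    intro A hAn hAcomm hApow hAK hAV hAf
    by_cases hA1 : A = ⊥
    · subst hA1
      rw [Subgroup.card_bot, one_mul]
      exact Subgroup.card_le_of_le inf_le_left
    · obtain ⟨B, hBA, a, haA, hBa, haB, hc1, hc2⟩ :=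
        offender_step V K hVp hK hKV hKf A hAcomm hApow hAK hAV hAf hA1
      have hBlt : Nat.card B < Nat.card A := by
        by_contra hge
        have h1 : B = A := Subgroup.eq_of_le_of_card_ge hBA (by omega)
        exact haB (h1 ▸ haA)
      have h1 := ih B (by omega) (fun x hx y hy => hAcomm x (hBA hx) y (hBA hy))
        (fun x hx => hApow x (hBA hx)) (hBA.trans hAK) (hBA.trans hAV)
        (le_bot_iff.mp ((inf_le_inf_right _ hBA).trans (le_of_eq hAf)))
      calc Nat.card A * Nat.card ↥(V ⊓ Subgroup.centralizer (A : Set G))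
          ≤ (p * Nat.card B) * Nat.card ↥(V ⊓ Subgroup.centralizer (A : Set G)) :=
            Nat.mul_le_mul_right _ hc1
        _ = Nat.card B * (p * Nat.card ↥(V ⊓ Subgroup.centralizer (A : Set G))) := by ring
        _ ≤ Nat.card B * Nat.card ↥(V ⊓ Subgroup.centralizer (B : Set G)) :=
            Nat.mul_le_mul_left _ hc2
        _ ≤ Nat.card V := h1

/-- A best offender in a faithful group is elementary abelian. -/
theorem bo_elem_ab {G : Type*} [Group G] {p : ℕ} (V H A : Subgroup G)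
    (hf : H ⊓ Subgroup.centralizer (V : Set G) = ⊥) (hAH : A ≤ H)
    (hA : Cfsg.IsBestOffenderOn p V A) :
    (∀ a ∈ A, ∀ b ∈ A, a * b = b * a) ∧ (∀ a ∈ A, a ^ p = 1) := by
  constructor
  · intro a ha b hb
    have h0 := hA.2.1 (Subgroup.commutator_mem_commutator ha hb)
    have h1 : a * b * a⁻¹ * b⁻¹ ∈ H ⊓ Subgroup.centralizer (V : Set G) := by
      refine Subgroup.mem_inf.mpr ⟨?_, ?_⟩
      · exact H.mul_mem (H.mul_mem (H.mul_mem (hAH ha) (hAH hb)) (H.inv_mem (hAH ha)))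
          (H.inv_mem (hAH hb))
      · rw [commutatorElement_def] at h0; exact h0
    rw [hf, Subgroup.mem_bot] at h1
    calc a * b = (a * b * a⁻¹ * b⁻¹) * (b * a) := by group
      _ = b * a := by rw [h1, one_mul]
  · intro a ha
    have h1 : a ^ p ∈ H ⊓ Subgroup.centralizer (V : Set G) :=
      Subgroup.mem_inf.mpr ⟨H.pow_mem (hAH ha) p, hA.2.2 a ha⟩
    rwa [hf, Subgroup.mem_bot] at h1

theorem isPGroup_of_pow_p {G : Type*} [Group G] {p : ℕ} (A : Subgroup G)
    (h : ∀ a ∈ A, a ^ p = 1) : IsPGroup p A := by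
  rintro ⟨a, ha⟩
  refine ⟨1, Subtype.ext ?_⟩
  show a ^ p ^ 1 = 1
  rw [pow_one]; exact h a ha

theorem inf_centralizer_bot {G : Type*} [Group G] (V : Subgroup G) :
    V ⊓ Subgroup.centralizer (((⊥ : Subgroup G) : Subgroup G) : Set G) = V := by
  apply inf_eq_left.mpr
  intro v _
  rw [Subgroup.mem_centralizer_iff]
  intro h hh
  have : h = 1 := Subgroup.mem_bot.mp hh
  rw [this]; simp

end Cfsg.Agent.Helper21
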