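import Mathlib
import Cfsg.Prelude.Def_Local
import Cfsg.Agent.Helper21.Offender

set_option autoImplicit false
set_option linter.style.haveILetI false

namespace Cfsg.Agent.Helper21

theorem offender_step2 {G : Type*} [Group G] [Finite G] {p : ℕ} [Fact p.Prime] (V K : Subgroup G)
    (hVp : IsPGroup p V) (hK : (Nat.card K).Coprime p)
    (hKV : K ≤ Subgroup.normalizer (V : Set G))
    (hKf : K ⊓ Subgroup.centralizer (V : Set G) = ⊥) (A : Subgroup G)
    (hAcomm : ∀ a ∈ A, ∀ b ∈ A, a * b = b * a) (hApow : ∀ a ∈ A, a ^ p = 1)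
    (hAK : A ≤ Subgroup.normalizer (K : Set G)) (hAV : A ≤ Subgroup.normalizer (V : Set G))
    (hAf : A ⊓ Subgroup.centralizer (K : Set G) = ⊥) (a₀ : G) (ha₀ : a₀ ∈ A) (ha₀1 : a₀ ≠ 1) :
    ∃ B : Subgroup G, B ≤ A ∧ a₀ ∉ B ∧
      Nat.card A ≤ p * Nat.card B ∧
      p * Nat.card ↥(V ⊓ Subgroup.centralizer (A : Set G)) ≤
        Nat.card ↥(V ⊓ Subgroup.centralizer (B : Set G)) := by
  classical
  have hp := (Fact.out : p.Prime)
  have hAab : IsMulCommutative A := ⟨⟨fun a b => Subtype.ext (hAcomm a a.2 b b.2)⟩⟩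
  have hAp : IsPGroup p A := by
    rintro ⟨a, ha⟩
    refine ⟨1, Subtype.ext ?_⟩
    show a ^ p ^ 1 = 1
    rw [pow_one]; exact hApow a ha
  have hcop : (Nat.card A).Coprime (Nat.card K) := by
    obtain ⟨k, hk⟩ := IsPGroup.iff_card.mp hAp
    rw [hk]; exact Nat.Coprime.pow_left k hK.symm
  have hgen := (Cfsg.Agent.S3734.result A K hAab hAK hcop).1
  have hexB : ∃ B : Subgroup G, (B ≤ A ∧ ∃ a ∈ A, B ⊔ Subgroup.zpowers a = A) ∧
      ¬ (K ⊓ Subgroup.centralizer (B : Set G) ≤ Subgroup.centralizer ({a₀} : Set G)) := by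
    by_contra hno
    have hall : ∀ B : Subgroup G, (B ≤ A ∧ ∃ a ∈ A, B ⊔ Subgroup.zpowers a = A) →
        K ⊓ Subgroup.centralizer (B : Set G) ≤ Subgroup.centralizer ({a₀} : Set G) := by
      intro B hB
      by_contra h1
      exact hno ⟨B, hB, h1⟩
    have h1 : K ≤ Subgroup.centralizer ({a₀} : Set G) :=
      le_trans (le_of_eq hgen.symm) (iSup₂_le (fun B hB => hall B hB))
    have h2 : a₀ ∈ A ⊓ Subgroup.centralizer (K : Set G) := by
      refine Subgroup.mem_inf.mpr ⟨ha₀, ?_⟩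
      rw [Subgroup.mem_centralizer_iff]
      intro k hk
      have h3 := h1 hk
      rw [Subgroup.mem_centralizer_singleton_iff] at h3
      exact h3
    rw [hAf, Subgroup.mem_bot] at h2
    exact ha₀1 h2
  obtain ⟨B, ⟨hBA, a, haA, hBa⟩, hnc⟩ := hexB
  have hexk : ∃ k₀ ∈ K ⊓ Subgroup.centralizer (B : Set G), a * k₀ * a⁻¹ ≠ k₀ := by
    by_contra hno
    have hall : ∀ k₀ ∈ K ⊓ Subgroup.centralizer (B : Set G), a * k₀ * a⁻¹ = k₀ := by
      intro k₀ hk₀
      by_contra h1
      exact hno ⟨k₀, hk₀, h1⟩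
    apply hnc
    intro k hk
    rw [Subgroup.mem_centralizer_singleton_iff]
    have hk' := hk
    rw [Subgroup.mem_inf, Subgroup.mem_centralizer_iff] at hk'
    have ha₀' : a₀ ∈ B ⊔ Subgroup.zpowers a := by rw [hBa]; exact ha₀
    obtain ⟨b, hb, m, hm, rfl⟩ := Cfsg.Agent.S3735.mem_sup_comm A hAab hBA
      (by rw [Subgroup.zpowers_le]; exact haA) ha₀'
    have h1 : a ∈ Subgroup.centralizer ({k} : Set G) := by
      rw [Subgroup.mem_centralizer_singleton_iff]
      have := hall k hk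
      calc a * k = (a * k * a⁻¹) * a := by group
        _ = k * a := by rw [this]
    have h2 : m ∈ Subgroup.centralizer ({k} : Set G) :=
      (Subgroup.zpowers_le.mpr h1) hm
    rw [Subgroup.mem_centralizer_singleton_iff] at h2
    have h3 : b * k = k * b := (hk'.2 b hb)
    calc k * (b * m) = (k * b) * m := by group
      _ = (b * k) * m := by rw [h3]
      _ = b * (k * m) := by group
      _ = b * (m * k) := by rw [h2]
      _ = b * m * k := by group
  obtain ⟨k₀, hk₀, hk₀a⟩ := hexk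
  have hk₀K := (Subgroup.mem_inf.mp hk₀).1
  have hk₀B := Subgroup.mem_centralizer_iff.mp (Subgroup.mem_inf.mp hk₀).2
  have haB : a ∉ B := by
    intro haB
    apply hk₀a
    have h1 := hk₀B a haB
    calc a * k₀ * a⁻¹ = (a * k₀) * a⁻¹ := rfl
      _ = (k₀ * a) * a⁻¹ := by rw [h1]
      _ = k₀ := by group
  have ha₀B : a₀ ∉ B := by
    intro h
    apply hnc
    intro k hk
    rw [Subgroup.mem_centralizer_singleton_iff]
    exact ((Subgroup.mem_centralizer_iff.mp (Subgroup.mem_inf.mp hk).2) a₀ h).symm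
  refine ⟨B, hBA, ha₀B, ?_, ?_⟩
  · -- `|A| ≤ p |B|`
    obtain ⟨f, hf⟩ : ∃ f : ↥B × Fin p → G, ∀ q, f q = (q.1 : G) * a ^ (q.2 : ℕ) := ⟨_, fun _ => rfl⟩
    have hfA : ∀ q, f q ∈ A := by
      intro q; rw [hf]; exact A.mul_mem (hBA q.1.2) (A.pow_mem haA _)
    have hsurj : Function.Surjective (fun q => (⟨f q, hfA q⟩ : ↥A)) := by
      rintro ⟨x, hx⟩
      have hx' : x ∈ B ⊔ Subgroup.zpowers a := by rw [hBa]; exact hx
      obtain ⟨b, hb, m, hm, rfl⟩ := Cfsg.Agent.S3735.mem_sup_comm A hAab hBA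
        (by rw [Subgroup.zpowers_le]; exact haA) hx'
      obtain ⟨j, rfl⟩ := Subgroup.mem_zpowers_iff.mp hm
      have hpz : a ^ (p : ℤ) = 1 := by rw [zpow_natCast]; exact hApow a haA
      have h3 : a ^ j = a ^ (j % (p : ℤ)) := zpow_eq_zpow_emod j hpz
      have hp0 : (p : ℤ) ≠ 0 := by exact_mod_cast hp.ne_zero
      have h4 : 0 ≤ j % (p : ℤ) := Int.emod_nonneg j hp0
      have h5 : j % (p : ℤ) < p := Int.emod_lt_of_pos j (by exact_mod_cast hp.pos)
      obtain ⟨n, hn⟩ := Int.eq_ofNat_of_zero_le h4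
      have hnp : n < p := by
        rw [hn] at h5; exact_mod_cast h5
      refine ⟨(⟨b, hb⟩, ⟨n, hnp⟩), Subtype.ext ?_⟩
      show f (⟨b, hb⟩, ⟨n, hnp⟩) = b * a ^ j
      rw [hf, h3, hn, zpow_natCast]
    have h1 := Nat.card_le_card_of_surjective _ hsurj
    rw [Nat.card_prod, Nat.card_fin] at h1
    rw [mul_comm]; exact h1
  · -- fixed points grow
    have hle : V ⊓ Subgroup.centralizer (A : Set G) ≤ V ⊓ Subgroup.centralizer (B : Set G) :=
      inf_le_inf_left _ (Subgroup.centralizer_le hBA)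
    have hne : ¬ (V ⊓ Subgroup.centralizer (B : Set G) ≤ V ⊓ Subgroup.centralizer (A : Set G)) := by
      intro hcon
      -- `a` centralizes `V ⊓ C(B)`
      have haV : ∀ v ∈ V ⊓ Subgroup.centralizer (B : Set G), a * v = v * a := by
        intro v hv
        have h1 := (Subgroup.mem_inf.mp (hcon hv)).2
        rw [Subgroup.mem_centralizer_iff] at h1
        exact h1 a haA
      have hk₀V : ∀ v ∈ V ⊓ Subgroup.centralizer (B : Set G),
          k₀ * v * k₀⁻¹ ∈ V ⊓ Subgroup.centralizer (B : Set G) := by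
        intro v hv
        obtain ⟨hvV, hvB⟩ := Subgroup.mem_inf.mp hv
        rw [Subgroup.mem_centralizer_iff] at hvB
        refine Subgroup.mem_inf.mpr
          ⟨(Subgroup.mem_normalizer_iff.mp (hKV hk₀K) v).mp hvV, ?_⟩
        rw [Subgroup.mem_centralizer_iff]
        intro b hb
        have h1 := hk₀B b hb
        have h2 := hvB b hb
        have h3 : b * k₀⁻¹ = k₀⁻¹ * b := by
          calc b * k₀⁻¹ = k₀⁻¹ * (k₀ * b) * k₀⁻¹ := by group
            _ = k₀⁻¹ * b := by rw [← h1]; group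
        calc b * (k₀ * v * k₀⁻¹) = (b * k₀) * v * k₀⁻¹ := by group
          _ = k₀ * (b * v) * k₀⁻¹ := by rw [h1]; group
          _ = k₀ * v * (b * k₀⁻¹) := by rw [h2]; group
          _ = k₀ * v * k₀⁻¹ * b := by rw [h3]; group
      obtain ⟨y, hydef⟩ : ∃ y, y = k₀⁻¹ * (a * k₀ * a⁻¹) := ⟨_, rfl⟩
      have hak₀K : a * k₀ * a⁻¹ ∈ K := (Subgroup.mem_normalizer_iff.mp (hAK haA) k₀).mp hk₀K
      have hyK : y ∈ K := by rw [hydef]; exact K.mul_mem (K.inv_mem hk₀K) hak₀K
      have hy1 : y ≠ 1 := by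
        intro h
        rw [hydef] at h
        exact hk₀a (inv_mul_eq_one.mp h).symm
      have hainvB : ∀ b ∈ B, b * a⁻¹ = a⁻¹ * b := by
        intro b hb
        have h1 := hAcomm a haA b (hBA hb)
        calc b * a⁻¹ = a⁻¹ * (a * b) * a⁻¹ := by group
          _ = a⁻¹ * b := by rw [h1]; group
      have hyB : ∀ b ∈ B, y * b = b * y := by
        intro b hb
        have h1 := hk₀B b hb
        have h2 := hAcomm a haA b (hBA hb)
        have h3 := hainvB b hb
        have h4 : b * k₀⁻¹ = k₀⁻¹ * b := by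
          calc b * k₀⁻¹ = k₀⁻¹ * (k₀ * b) * k₀⁻¹ := by group
            _ = k₀⁻¹ * b := by rw [← h1]; group
        rw [hydef]
        calc k₀⁻¹ * (a * k₀ * a⁻¹) * b = k₀⁻¹ * a * k₀ * (a⁻¹ * b) := by group
          _ = k₀⁻¹ * a * (k₀ * b) * a⁻¹ := by rw [← h3]; group
          _ = k₀⁻¹ * (a * b) * k₀ * a⁻¹ := by rw [← h1]; group
          _ = (k₀⁻¹ * b) * a * k₀ * a⁻¹ := by rw [h2]; group
          _ = b * (k₀⁻¹ * (a * k₀ * a⁻¹)) := by rw [← h4]; group
      have hyV : ∀ v ∈ V ⊓ Subgroup.centralizer (B : Set G), y * v = v * y := by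
        intro v hv
        have h1 := haV v hv
        have h2 := haV _ (hk₀V v hv)
        have h3 : a⁻¹ * v = v * a⁻¹ := by
          calc a⁻¹ * v = a⁻¹ * (v * a) * a⁻¹ := by group
            _ = v * a⁻¹ := by rw [← h1]; group
        rw [hydef]
        calc k₀⁻¹ * (a * k₀ * a⁻¹) * v = k₀⁻¹ * a * k₀ * (a⁻¹ * v) := by group
          _ = k₀⁻¹ * (a * (k₀ * v * k₀⁻¹)) * k₀ * a⁻¹ := by rw [h3]; group
          _ = k₀⁻¹ * ((k₀ * v * k₀⁻¹) * a) * k₀ * a⁻¹ := by rw [h2]
          _ = v * (k₀⁻¹ * (a * k₀ * a⁻¹)) := by group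
      have hBp : IsPGroup p B := hAp.to_le hBA
      have hyord : (orderOf y).Coprime p := by
        have h1 : orderOf (⟨y, hyK⟩ : ↥K) ∣ Nat.card K := orderOf_dvd_natCard _
        rw [Subgroup.orderOf_mk] at h1
        exact Nat.Coprime.coprime_dvd_left h1 hK
      have h1 := Cfsg.Agent.Helper18.thompson_AxB (p := p) V B hVp hBp (hBA.trans hAV) y
        (fun u hu => (Subgroup.mem_normalizer_iff.mp (hKV hyK) u).mp hu) hyord hyB
        (fun u hu hub => hyV u (Subgroup.mem_inf.mpr ⟨hu, by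
          rw [Subgroup.mem_centralizer_iff]
          intro b hb
          exact (hub b hb).symm⟩))
      have h2 : y ∈ K ⊓ Subgroup.centralizer (V : Set G) := by
        refine Subgroup.mem_inf.mpr ⟨hyK, ?_⟩
        rw [Subgroup.mem_centralizer_iff]
        intro v hv
        exact (h1 v hv).symm
      rw [hKf, Subgroup.mem_bot] at h2
      exact hy1 h2
    have hidx1 : (V ⊓ Subgroup.centralizer (A : Set G)).relIndex
        (V ⊓ Subgroup.centralizer (B : Set G)) ≠ 1 := by
      rw [Ne, Subgroup.relIndex_eq_one]; exact hne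
    have hmul := Subgroup.relIndex_mul_relIndex ⊥ _ _ bot_le hle
    rw [Subgroup.relIndex_bot_left, Subgroup.relIndex_bot_left] at hmul
    have hVBp : IsPGroup p ↥(V ⊓ Subgroup.centralizer (B : Set G)) := hVp.to_le inf_le_left
    obtain ⟨m, hm⟩ := IsPGroup.iff_card.mp hVBp
    have hdvd : (V ⊓ Subgroup.centralizer (A : Set G)).relIndex
        (V ⊓ Subgroup.centralizer (B : Set G)) ∣ p ^ m := by
      rw [← hm]; exact Subgroup.relIndex_dvd_card _ _
    obtain ⟨j, -, hj⟩ := (Nat.dvd_prime_pow hp).mp hdvd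
    have hj0 : j ≠ 0 := by
      rintro rfl
      rw [pow_zero] at hj
      exact hidx1 hj
    have hpj : p ≤ p ^ j := Nat.le_self_pow hj0 p
    rw [hj] at hmul
    calc p * Nat.card ↥(V ⊓ Subgroup.centralizer (A : Set G))
        = Nat.card ↥(V ⊓ Subgroup.centralizer (A : Set G)) * p := mul_comm _ _
      _ ≤ Nat.card ↥(V ⊓ Subgroup.centralizer (A : Set G)) * p ^ j := Nat.mul_le_mul_left _ hpj
      _ = _ := hmul


/-- In the equality case of the offender bound, hyperplanes avoiding a given element inherit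
equality. -/
theorem dset_step {G : Type*} [Group G] [Finite G] {p : ℕ} [Fact p.Prime] (V K : Subgroup G)
    (hVp : IsPGroup p V) (hK : (Nat.card K).Coprime p)
    (hKV : K ≤ Subgroup.normalizer (V : Set G))
    (hKf : K ⊓ Subgroup.centralizer (V : Set G) = ⊥) (A : Subgroup G)
    (hAcomm : ∀ a ∈ A, ∀ b ∈ A, a * b = b * a) (hApow : ∀ a ∈ A, a ^ p = 1)
    (hAK : A ≤ Subgroup.normalizer (K : Set G)) (hAV : A ≤ Subgroup.normalizer (V : Set G))
    (hAf : A ⊓ Subgroup.centralizer (K : Set G) = ⊥)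
    (hD : Nat.card A * Nat.card ↥(V ⊓ Subgroup.centralizer (A : Set G)) = Nat.card V)
    (a₀ : G) (ha₀ : a₀ ∈ A) (ha₀1 : a₀ ≠ 1) :
    ∃ B : Subgroup G, B ≤ A ∧ a₀ ∉ B ∧ Nat.card A = p * Nat.card B ∧
      Nat.card B * Nat.card ↥(V ⊓ Subgroup.centralizer (B : Set G)) = Nat.card V := by
  obtain ⟨B, hBA, ha₀B, hc1, hc2⟩ := offender_step2 V K hVp hK hKV hKf A hAcomm hApow hAK hAV hAf
    a₀ ha₀ ha₀1
  have hB := offender_bound V K hVp hK hKV hKf (Nat.card B) B le_rfl
    (fun x hx y hy => hAcomm x (hBA hx) y (hBA hy)) (fun x hx => hApow x (hBA hx))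
    (hBA.trans hAK) (hBA.trans hAV)
    (le_bot_iff.mp ((inf_le_inf_right _ hBA).trans (le_of_eq hAf)))
  have hch1 : Nat.card A * Nat.card ↥(V ⊓ Subgroup.centralizer (A : Set G))
      ≤ (p * Nat.card B) * Nat.card ↥(V ⊓ Subgroup.centralizer (A : Set G)) :=
    Nat.mul_le_mul_right _ hc1
  have hch2 : Nat.card B * (p * Nat.card ↥(V ⊓ Subgroup.centralizer (A : Set G)))
      ≤ Nat.card B * Nat.card ↥(V ⊓ Subgroup.centralizer (B : Set G)) :=
    Nat.mul_le_mul_left _ hc2
  have hch3 : (p * Nat.card B) * Nat.card ↥(V ⊓ Subgroup.centralizer (A : Set G))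
      = Nat.card B * (p * Nat.card ↥(V ⊓ Subgroup.centralizer (A : Set G))) := by ring
  have e1 : Nat.card B * Nat.card ↥(V ⊓ Subgroup.centralizer (B : Set G)) = Nat.card V := by
    omega
  have e2 : Nat.card A * Nat.card ↥(V ⊓ Subgroup.centralizer (A : Set G))
      = (p * Nat.card B) * Nat.card ↥(V ⊓ Subgroup.centralizer (A : Set G)) := by omega
  exact ⟨B, hBA, ha₀B, Nat.eq_of_mul_eq_mul_right Nat.card_pos e2, e1⟩

/-- Decomposition of an elementary abelian group in the equality case into subgroups of order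
`p` in the equality case, with complements witnessing independence. -/
theorem offender_decomp {G : Type*} [Group G] [Finite G] {p : ℕ} [Fact p.Prime] (V K : Subgroup G)
    (hVp : IsPGroup p V) (hK : (Nat.card K).Coprime p)
    (hKV : K ≤ Subgroup.normalizer (V : Set G))
    (hKf : K ⊓ Subgroup.centralizer (V : Set G) = ⊥) :
    ∀ (n : ℕ) (A : Subgroup G), Nat.card A ≤ n →
      (∀ a ∈ A, ∀ b ∈ A, a * b = b * a) → (∀ a ∈ A, a ^ p = 1) →
      A ≤ Subgroup.normalizer (K : Set G) → A ≤ Subgroup.normalizer (V : Set G) →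
      A ⊓ Subgroup.centralizer (K : Set G) = ⊥ →
      Nat.card A * Nat.card ↥(V ⊓ Subgroup.centralizer (A : Set G)) = Nat.card V → A ≠ ⊥ →
      ∃ (k : ℕ) (B : Fin k → Subgroup G),
        (∀ i, B i ≤ A ∧ Nat.card (B i) = p ∧
          Nat.card (B i) * Nat.card ↥(V ⊓ Subgroup.centralizer (B i : Set G)) = Nat.card V) ∧
        (∀ i, ∃ Hi : Subgroup G, Hi ≤ A ∧ (∀ j, j ≠ i → B j ≤ Hi) ∧ B i ⊓ Hi = ⊥) ∧
        ⨆ i, B i = A := by
  classical
  have hp := (Fact.out : p.Prime)
  intro n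
  induction n with
  | zero =>
    intro A hA
    have := Nat.card_pos (α := A)
    omega
  | succ n ih =>
    intro A hAn hAcomm hApow hAK hAV hAf hD hA1
    have hAab : IsMulCommutative A := ⟨⟨fun a b => Subtype.ext (hAcomm a a.2 b b.2)⟩⟩
    have hsub : ∀ B : Subgroup G, B ≤ A → (∀ a ∈ B, ∀ b ∈ B, a * b = b * a) ∧
        (∀ a ∈ B, a ^ p = 1) ∧ B ≤ Subgroup.normalizer (K : Set G) ∧
        B ≤ Subgroup.normalizer (V : Set G) ∧ B ⊓ Subgroup.centralizer (K : Set G) = ⊥ :=
      fun B hBA => ⟨fun x hx y hy => hAcomm x (hBA hx) y (hBA hy), fun x hx => hApow x (hBA hx),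
        hBA.trans hAK, hBA.trans hAV,
        le_bot_iff.mp ((inf_le_inf_right _ hBA).trans (le_of_eq hAf))⟩
    obtain ⟨a₀, ha₀, ha₀1⟩ : ∃ a₀ ∈ A, a₀ ≠ 1 := by
      by_contra hno
      apply hA1
      rw [Subgroup.eq_bot_iff_forall]
      intro a ha
      by_contra h1
      exact hno ⟨a, ha, h1⟩
    obtain ⟨H, hHA, ha₀H, hcard, hDH⟩ := dset_step V K hVp hK hKV hKf A hAcomm hApow hAK hAV hAf hD
      a₀ ha₀ ha₀1
    by_cases hH1 : H = ⊥
    · subst hH1
      rw [Subgroup.card_bot, mul_one] at hcard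
      refine ⟨1, fun _ => A, fun _ => ⟨le_rfl, hcard, hD⟩, fun i => ⟨⊥, bot_le, ?_, inf_bot_eq _⟩, ?_⟩
      · intro j hj
        exact absurd (Subsingleton.elim j i) hj
      · exact iSup_const
    · obtain ⟨h₀, hh₀, hh₀1⟩ : ∃ h₀ ∈ H, h₀ ≠ 1 := by
        by_contra hno
        apply hH1
        rw [Subgroup.eq_bot_iff_forall]
        intro a ha
        by_contra h1
        exact hno ⟨a, ha, h1⟩
      obtain ⟨H', hH'A, hh₀H', hcard', hDH'⟩ := dset_step V K hVp hK hKV hKf A hAcomm hApow hAK hAV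
        hAf hD h₀ (hHA hh₀) hh₀1
      have hHpos : 0 < Nat.card H := Nat.card_pos
      have hp2 := hp.two_le
      have hHlt : Nat.card H < Nat.card A := by rw [hcard]; nlinarith
      have hHH' : Nat.card H' = Nat.card H := by
        have : p * Nat.card H' = p * Nat.card H := by rw [← hcard, ← hcard']
        exact Nat.eq_of_mul_eq_mul_left hp.pos this
      have hH'1 : H' ≠ ⊥ := by
        rintro rfl
        rw [Subgroup.card_bot] at hHH'
        exact hH1 (Subgroup.card_eq_one.mp hHH'.symm)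
      obtain ⟨hc', hp', hK', hV', hf'⟩ := hsub H' hH'A
      obtain ⟨k'', B'', hB''1, -, hB''sup⟩ := ih H' (by omega) hc' hp' hK' hV' hf' hDH' hH'1
      obtain ⟨i₀, hi₀⟩ : ∃ i, ¬ B'' i ≤ H := by
        by_contra hno
        have hall : ∀ i, B'' i ≤ H := by
          intro i
          by_contra h1
          exact hno ⟨i, h1⟩
        have h1 : H' ≤ H := by rw [← hB''sup]; exact iSup_le hall
        have h2 : H' = H := Subgroup.eq_of_le_of_card_ge h1 (by omega)
        exact hh₀H' (h2 ▸ hh₀)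
      obtain ⟨B₁, hB₁def⟩ : ∃ B₁, B₁ = B'' i₀ := ⟨_, rfl⟩
      have hB₁A : B₁ ≤ A := by rw [hB₁def]; exact (hB''1 i₀).1.trans hH'A
      have hB₁card : Nat.card B₁ = p := by rw [hB₁def]; exact (hB''1 i₀).2.1
      have hB₁D : Nat.card B₁ * Nat.card ↥(V ⊓ Subgroup.centralizer (B₁ : Set G)) = Nat.card V := by
        rw [hB₁def]; exact (hB''1 i₀).2.2
      have hB₁nH : ¬ B₁ ≤ H := by rw [hB₁def]; exact hi₀
      have hB₁H : B₁ ⊓ H = ⊥ := by
        have h1 : Nat.card ↥(B₁ ⊓ H) ∣ p := by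
          rw [← hB₁card]; exact Subgroup.card_dvd_of_le inf_le_left
        rcases (Nat.dvd_prime hp).mp h1 with h2 | h2
        · exact Subgroup.card_eq_one.mp h2
        · exfalso
          have h3 : B₁ ⊓ H = B₁ := Subgroup.eq_of_le_of_card_ge inf_le_left (by omega)
          exact hB₁nH (inf_eq_left.mp h3)
      have hB₁Hsup : B₁ ⊔ H = A := by
        have hle : B₁ ⊔ H ≤ A := sup_le hB₁A hHA
        obtain ⟨t, ht⟩ : Nat.card H ∣ Nat.card ↥(B₁ ⊔ H) := Subgroup.card_dvd_of_le le_sup_right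
        have h1 : Nat.card ↥(B₁ ⊔ H) ∣ Nat.card A := Subgroup.card_dvd_of_le hle
        rw [ht, hcard, mul_comm p] at h1
        have h2 : t ∣ p := Nat.dvd_of_mul_dvd_mul_left hHpos h1
        rcases (Nat.dvd_prime hp).mp h2 with h3 | h3
        · exfalso
          rw [h3, mul_one] at ht
          have h4 : H = B₁ ⊔ H := Subgroup.eq_of_le_of_card_ge le_sup_right (by omega)
          exact hB₁nH (h4 ▸ le_sup_left)
        · exact Subgroup.eq_of_le_of_card_ge hle (by rw [ht, h3, hcard, mul_comm])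
      obtain ⟨hcH, hpH, hKH, hVH, hfH⟩ := hsub H hHA
      obtain ⟨k', B', hB'1, hB'2, hB'sup⟩ := ih H (by omega) hcH hpH hKH hVH hfH hDH hH1
      refine ⟨k' + 1, Fin.cons B₁ B', ?_, ?_, ?_⟩
      · intro i
        refine Fin.cases ?_ ?_ i
        · rw [Fin.cons_zero]; exact ⟨hB₁A, hB₁card, hB₁D⟩
        · intro j
          rw [Fin.cons_succ]
          exact ⟨(hB'1 j).1.trans hHA, (hB'1 j).2.1, (hB'1 j).2.2⟩
      · intro i
        refine Fin.cases ?_ ?_ i
        · refine ⟨H, hHA, ?_, ?_⟩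
          · intro j
            refine Fin.cases ?_ ?_ j
            · intro h; exact absurd rfl h
            · intro j' _
              rw [Fin.cons_succ]; exact (hB'1 j').1
          · rw [Fin.cons_zero]; exact hB₁H
        · intro i'
          obtain ⟨Hi, hHiH, hHij, hHi0⟩ := hB'2 i'
          refine ⟨B₁ ⊔ Hi, sup_le hB₁A (hHiH.trans hHA), ?_, ?_⟩
          · intro j
            refine Fin.cases ?_ ?_ j
            · intro _
              rw [Fin.cons_zero]; exact le_sup_left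
            · intro j' hj'
              rw [Fin.cons_succ]
              exact (hHij j' (fun h => hj' (by rw [h]))).trans le_sup_right
          · rw [Fin.cons_succ, Subgroup.eq_bot_iff_forall]
            intro x hx
            obtain ⟨hx1, hx2⟩ := Subgroup.mem_inf.mp hx
            obtain ⟨b, hb, h, hh, rfl⟩ := Cfsg.Agent.S3735.mem_sup_comm A hAab hB₁A
              (hHiH.trans hHA) hx2
            have hbH : b ∈ H := by
              have h1 := H.mul_mem ((hB'1 i').1 hx1) (H.inv_mem (hHiH hh))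
              rwa [mul_inv_cancel_right] at h1
            have hb1 : b = 1 := by
              have h1 : b ∈ B₁ ⊓ H := Subgroup.mem_inf.mpr ⟨hb, hbH⟩
              rwa [hB₁H, Subgroup.mem_bot] at h1
            rw [hb1, one_mul] at hx1 ⊢
            have h2 : h ∈ B' i' ⊓ Hi := Subgroup.mem_inf.mpr ⟨hx1, hh⟩
            rwa [hHi0, Subgroup.mem_bot] at h2
      · apply le_antisymm
        · apply iSup_le
          intro i
          refine Fin.cases ?_ ?_ i
          · rw [Fin.cons_zero]; exact hB₁A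
          · intro j
            rw [Fin.cons_succ]; exact (hB'1 j).1.trans hHA
        · rw [← hB₁Hsup, ← hB'sup]
          apply sup_le
          · have h1 := le_iSup (Fin.cons B₁ B' : Fin (k' + 1) → Subgroup G) 0
            rwa [Fin.cons_zero] at h1
          · apply iSup_le
            intro j
            have h1 := le_iSup (Fin.cons B₁ B' : Fin (k' + 1) → Subgroup G) j.succ
            rwa [Fin.cons_succ] at h1

end Cfsg.Agent.Helper21
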